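import Cfsg.Agent.Forms.SympEmbed
import Cfsg.Agent.Forms.Basic

/-!
Isometries of odd order without fixed vectors: parity of the dimension and the determinant of the
similitudes commuting with them.
-/

set_option autoImplicit false

namespace CfsgLib.OrthFusion

open QuadraticMap

variable {F V : Type*} [Field F] [AddCommGroup V] [Module F V] [FiniteDimensional F V]

theorem even_finrank_of_alt (B : LinearMap.BilinForm F V) (hA : B.IsAlt) (hB : B.SeparatingLeft) :
    Even (Module.finrank F V) := by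
  obtain ⟨m, k, b, -, -, -, hrad⟩ := Cfsg.Agent.S0752.result B hA
  have hk : k = 0 := by
    rcases Nat.eq_zero_or_pos k with h | h
    · exact h
    · exact absurd (hB _ (hrad ⟨0, h⟩)) (b.ne_zero _)
  subst hk
  rw [Module.finrank_eq_card_basis b]
  simp

theorem det_of_symp_similitude (B : LinearMap.BilinForm F V) (hA : B.IsAlt) (hB : B.SeparatingLeft)
    {c : V →ₗ[F] V} {μ : F} (hμ : μ ≠ 0) (hc : ∀ u v, B (c u) (c v) = μ * B u v) :
    LinearMap.det c = μ ^ (Module.finrank F V / 2) := by
  classical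
  obtain ⟨n, hn⟩ := even_finrank_of_alt B hA hB
  obtain ⟨g, hg⟩ := CfsgLib.Forms.exists_symp_coord (V := V) (n := n) (by omega) B hA hB
  obtain ⟨C, hC⟩ : ∃ C, C = LinearMap.toMatrix' ((g : V →ₗ[F] (Fin n ⊕ Fin n → F)) ∘ₗ c ∘ₗ (g.symm : (Fin n ⊕ Fin n → F) →ₗ[F] V)) :=
    ⟨_, rfl⟩
  have hCv : ∀ v, C.mulVec v = g (c (g.symm v)) := fun v => by rw [hC]; exact LinearMap.toMatrix'_mulVec _ v
  have hCB : ∀ u v, Cfsg.sympForm n F (C.mulVec u) (C.mulVec v) = μ * Cfsg.sympForm n F u v := fun u v => by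
    rw [hCv, hCv, hg, hc]
    conv_rhs => rw [← g.apply_symm_apply u, ← g.apply_symm_apply v, hg]
  obtain ⟨D, hD⟩ : ∃ D : Matrix (Fin n ⊕ Fin n) (Fin n ⊕ Fin n) F,
      D = Matrix.diagonal (Sum.elim (fun _ => μ⁻¹) (fun _ => 1)) := ⟨_, rfl⟩
  have hDC : D * C ∈ Matrix.symplecticGroup (Fin n) F := CfsgLib.SpGeom.mem_of_form fun u v => by
    rw [← Matrix.mulVec_mulVec, ← Matrix.mulVec_mulVec, hD, CfsgLib.SpGeom.form_def]
    have h := hCB u v
    rw [CfsgLib.SpGeom.form_def] at h
    rw [show Cfsg.sympForm n F u v = μ⁻¹ * (μ * Cfsg.sympForm n F u v) by field_simp, ← h, Finset.mul_sum]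
    refine Finset.sum_congr rfl fun i _ => ?_
    simp only [Matrix.mulVec_diagonal, Sum.elim_inl, Sum.elim_inr]
    ring
  have h1 := SymplecticGroup.det_eq_one hDC
  rw [Matrix.det_mul, hD, Matrix.det_diagonal, Fintype.prod_sum_type, hC, LinearMap.det_toMatrix'] at h1
  simp only [Sum.elim_inl, Sum.elim_inr, Finset.prod_const, Finset.card_univ, Fintype.card_fin, one_pow, mul_one] at h1
  have h2 : LinearMap.det ((g : V →ₗ[F] (Fin n ⊕ Fin n → F)) ∘ₗ c ∘ₗ (g.symm : (Fin n ⊕ Fin n → F) →ₗ[F] V)) = LinearMap.det c :=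
    LinearMap.det_conj c g
  rw [h2, inv_pow] at h1
  rw [show Module.finrank F V / 2 = n by omega]
  field_simp at h1
  exact h1

variable {Q : QuadraticForm F V} (hQ : (polarBilin Q).Nondegenerate) {s : V ≃ₗ[F] V} (hs : ∀ v, Q (s v) = Q v)
  {r : ℕ} (hr : Odd r) (hsr : ∀ v, (s ^ r) v = v) (hfix : ∀ v, s v = v → v = 0)

include hs in
omit [FiniteDimensional F V] in
theorem polar_apply (u v : V) : polar Q (s u) (s v) = polar Q u v := by
  simp only [polar, ← map_add, hs]

/-- The alternating form attached to an isometry. -/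
noncomputable def altForm (Q : QuadraticForm F V) (s : V ≃ₗ[F] V) : LinearMap.BilinForm F V :=
  (polarBilin Q).compl₂ ((s : V →ₗ[F] V) - (s.symm : V →ₗ[F] V))

omit [FiniteDimensional F V] in
theorem altForm_apply (u v : V) : altForm Q s u v = polar Q u (s v) - polar Q u (s.symm v) := by
  rw [altForm, LinearMap.compl₂_apply, LinearMap.sub_apply, map_sub]
  rfl

include hs in
omit [FiniteDimensional F V] in
theorem altForm_isAlt : (altForm Q s).IsAlt := fun u => by
  rw [altForm_apply, ← polar_apply hs u (s.symm u), s.apply_symm_apply, polar_comm (⇑Q) (s u) u, sub_self]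

include hr hsr in
omit [FiniteDimensional F V] in
theorem fix_of_sq_fix {v : V} (h : s (s v) = v) : s v = v := by
  obtain ⟨k, rfl⟩ := hr
  have hk : ∀ i : ℕ, (s ^ (2 * i)) v = v := fun i => by
    induction i with
    | zero => rfl
    | succ i ih => rw [Nat.mul_succ, pow_add]; show (s ^ (2 * i)) (s (s v)) = v; rw [h, ih]
  have := hsr (s v)
  rw [show (s ^ (2 * k + 1)) (s v) = (s ^ (2 * k)) (s (s v)) by rw [pow_succ]; rfl, h, hk] at this
  exact this.symm

include hQ hr hsr hfix in
theorem altForm_separatingLeft : (altForm Q s).SeparatingLeft := by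
  have hinj : Function.Injective ((s : V →ₗ[F] V) - (s.symm : V →ₗ[F] V)) := by
    rw [injective_iff_map_eq_zero]
    intro v hv
    rw [LinearMap.sub_apply, sub_eq_zero] at hv
    refine hfix v (fix_of_sq_fix hr hsr ?_)
    have h := congrArg s hv
    simpa using h
  have hsurj := LinearMap.injective_iff_surjective.mp hinj
  intro u hu
  refine hQ.1 u fun y => ?_
  obtain ⟨v, rfl⟩ := hsurj y
  exact hu v

include hQ hs hr hsr hfix in
theorem even_finrank_of_moving : Even (Module.finrank F V) :=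
  even_finrank_of_alt _ (altForm_isAlt hs) (altForm_separatingLeft hQ hr hsr hfix)

include hQ hs hr hsr hfix in
/-- A similitude commuting with a fixed-point-free isometry of odd order is proper. -/
theorem det_of_commute {c : V →ₗ[F] V} {μ : F} (hμ : μ ≠ 0) (hcs : ∀ v, c (s v) = s (c v))
    (hc : ∀ v, Q (c v) = μ * Q v) : LinearMap.det c = μ ^ (Module.finrank F V / 2) := by
  refine det_of_symp_similitude _ (altForm_isAlt hs) (altForm_separatingLeft hQ hr hsr hfix) hμ fun u v => ?_
  have hp : ∀ a b, polar Q (c a) (c b) = μ * polar Q a b := fun a b => by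
    simp only [polar, ← map_add, hc]; ring
  have hcs' : c (s.symm v) = s.symm (c v) := by
    apply s.injective
    rw [← hcs, s.apply_symm_apply, s.apply_symm_apply]
  rw [altForm_apply, altForm_apply, ← hcs, ← hcs', hp, hp]
  ring

end CfsgLib.OrthFusion
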