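import Cfsg.Agent.OrthFusion.OrbitSign
import Cfsg.Agent.OrthFusion.Moving

/-!
Isometries centralising a given one, extended from an orthogonal summand.
-/

set_option autoImplicit false

namespace CfsgLib.OrthFusion

open QuadraticMap
open CfsgLib.Forms (isom levelPerm perp spin detSign mem_perp finrank_perp)

variable {F V : Type*} [Field F] [Finite F] [AddCommGroup V] [Module F V] [FiniteDimensional F V]
  {Q : QuadraticForm F V}

theorem spin_eq_neg_one_of_summand (h2 : (2 : F) ≠ 0) (hQ : (polarBilin Q).Nondegenerate) {s : V ≃ₗ[F] V}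
    (hs : ∀ v, Q (s v) = Q v) {W : Submodule F V} (hW : ∀ v ∈ W, s v ∈ W) (hWd : Disjoint W (perp Q W))
    (A : W ≃ₗ[F] W) (hAQ : ∀ w : W, Q (A w : V) = Q (w : V)) (hAs : ∀ w : W, (A ⟨s w, hW _ w.2⟩ : V) = s (A w : V))
    {N : ℕ} (hN0 : 0 < N) (hN : Even N) (hAN : A ^ N = 1)
    (hfree : ∀ w : W, w ≠ 0 → ∀ i, (A ^ i) w = w → N ∣ i)
    (hlev : ∃ j, Odd j ∧ Nat.card {w : V // w ∈ W ∧ Q w = 1} = N * j) :
    ∃ u : isom Q, (∀ v, (u : V ≃ₗ[F] V) (s v) = s ((u : V ≃ₗ[F] V) v)) ∧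
      spin h2 hQ u = -detSign h2 hQ u := by
  classical
  have : Finite V := Module.finite_of_finite F
  have hc : IsCompl W (perp Q W) := by
    refine (Submodule.isCompl_iff_disjoint _ _ ?_).mpr hWd
    rw [finrank_perp hQ]
    have := Submodule.finrank_le W
    omega
  have horth : ∀ w ∈ W, ∀ w' ∈ perp Q W, polar Q w w' = 0 := fun w hw w' hw' => by
    rw [polar_comm]; exact mem_perp.mp hw' w hw
  have hW' : ∀ v ∈ perp Q W, s v ∈ perp Q W := fun v hv => mem_perp.mpr fun w hw => by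
    obtain ⟨w₀, hw₀⟩ := (Finite.injective_iff_surjective.mp (fun (a b : W) (h : (⟨s a, hW _ a.2⟩ : W) = ⟨s b, hW _ b.2⟩) =>
      Subtype.ext (s.injective (congrArg Subtype.val h)))) ⟨w, hw⟩
    rw [← show s (w₀ : V) = w from congrArg Subtype.val hw₀, polar_apply hs, mem_perp.mp hv _ w₀.2]
  let e := Submodule.prodEquivOfIsCompl W (perp Q W) hc
  let u₀ : V ≃ₗ[F] V := e.symm.trans ((A.prodCongr (LinearEquiv.refl F (perp Q W))).trans e)
  have hu₀ : ∀ (w : W) (w' : perp Q W), u₀ ((w : V) + w') = (A w : V) + w' := fun w w' => by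
    have h1 : e.symm ((w : V) + w') = (w, w') := by rw [LinearEquiv.symm_apply_eq]; simp [e]
    show e ((A.prodCongr (LinearEquiv.refl F (perp Q W))) (e.symm ((w : V) + w'))) = _
    rw [h1]
    simp [e]
  have hdec : ∀ v : V, ∃ (w : W) (w' : perp Q W), (w : V) + w' = v := fun v => by
    obtain ⟨w, hw, w', hw', e⟩ := Submodule.mem_sup.mp (hc.sup_eq_top ▸ Submodule.mem_top : v ∈ W ⊔ perp Q W)
    exact ⟨⟨w, hw⟩, ⟨w', hw'⟩, e⟩
  have huQ : u₀ ∈ isom Q := fun v => by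
    obtain ⟨w, w', rfl⟩ := hdec v
    rw [hu₀, QuadraticMap.map_add (⇑Q), QuadraticMap.map_add (⇑Q), horth _ (A w).2 _ w'.2, horth _ w.2 _ w'.2, hAQ]
  have hpow : ∀ (i : ℕ) (w : W) (w' : perp Q W), (u₀ ^ i) ((w : V) + w') = ((A ^ i) w : V) + w' := fun i => by
    induction i with
    | zero => exact fun w w' => rfl
    | succ i ih =>
      intro w w'
      rw [pow_succ, pow_succ]
      show (u₀ ^ i) (u₀ ((w : V) + w')) = _
      rw [hu₀, ih]
      rfl
  refine ⟨⟨u₀, huQ⟩, fun v => ?_, ?_⟩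
  · obtain ⟨w, w', rfl⟩ := hdec v
    show u₀ (s ((w : V) + w')) = s (u₀ ((w : V) + w'))
    rw [hu₀, map_add s, map_add s, ← hAs w]
    exact hu₀ ⟨s w, hW _ w.2⟩ ⟨s w', hW' _ w'.2⟩
  let inst : Fintype {x : V // Q x = 1} :=
    @Fintype.ofFinite _ (@Subtype.finite _ (Module.finite_of_finite F) _)
  have hsign : Equiv.Perm.sign (levelPerm Q ⟨u₀, huQ⟩) = -1 := by
    refine sign_levelPerm h2 hc horth ⟨u₀, huQ⟩ (fun w hw => ?_) (fun w hw => ?_) hN0 hN ?_ (fun w hw hw0 i hi => ?_) hlev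
    · have := hu₀ 0 ⟨w, hw⟩
      simpa using this
    · have := hu₀ ⟨w, hw⟩ 0
      simp at this
      show u₀ w ∈ W
      rw [this]
      exact (A _).2
    · refine Subtype.ext (LinearEquiv.ext fun v => ?_)
      obtain ⟨w, w', rfl⟩ := hdec v
      show (u₀ ^ N) ((w : V) + w') = (w : V) + w'
      rw [hpow, hAN]
      rfl
    · refine hfree ⟨w, hw⟩ (fun h => hw0 (congrArg Subtype.val h)) i (Subtype.ext ?_)
      have := hpow i ⟨w, hw⟩ 0
      simp at this
      rw [← this]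
      exact hi
  show (Equiv.Perm.sign (levelPerm Q ⟨u₀, huQ⟩)) * detSign h2 hQ ⟨u₀, huQ⟩ = _
  rw [hsign, neg_one_mul]

end CfsgLib.OrthFusion
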