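import Cfsg.Agent.OrthFusion.Torus
import Cfsg.Agent.Forms.Similitude
import Cfsg.Agent.FormConj.Orth

/-!
Semisimple elements of odd prime order of the projective conformal orthogonal group: fusion of classes.
-/

set_option autoImplicit false
set_option maxHeartbeats 400000

namespace CfsgLib.OrthFusion

open QuadraticMap Matrix
open CfsgLib.Forms

variable {F : Type*} [Field F] [Finite F] {ι : Type} [Fintype ι] [DecidableEq ι] {Q : QuadraticForm F (ι → F)}

theorem pow_glEquiv (g : GL ι F) (i : ℕ) : glEquiv (g ^ i) = glEquiv g ^ i := map_pow glEquiv g i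

theorem exists_conj (hQ : (polarBilin Q).Nondegenerate) {s s' : (Cfsg.isometryGroup F ⇑Q)} {r : ℕ} (hr : Odd r) (hrF : (r : F) ≠ 0)
    (hsr : s ^ r = 1) {g : GL ι F} (hg : g * (s : GL ι F) = (s' : GL ι F) * g) :
    ∃ k : (Cfsg.isometryGroup F ⇑Q), k * s = s' * k := by
  let e := Fintype.equivFin ι
  let L : (Fin (Fintype.card ι) → F) ≃ₗ[F] (ι → F) := LinearEquiv.funCongrLeft F F e
  obtain ⟨Q', hQ'⟩ : ∃ Q' : QuadraticForm F (Fin (Fintype.card ι) → F),
      Q' = Q.comp (L : (Fin (Fintype.card ι) → F) →ₗ[F] (ι → F)) := ⟨_, rfl⟩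
  have hQ'v : ∀ v, Q' v = Q (L v) := fun v => by rw [hQ']; rfl
  have hR : ∀ (M : Matrix ι ι F) (v : Fin (Fintype.card ι) → F),
      Matrix.reindexAlgEquiv F F e M *ᵥ v = L.symm (M *ᵥ L v) := fun M v => by
    rw [Matrix.reindexAlgEquiv_apply, Matrix.reindex_apply, Matrix.submatrix_mulVec_equiv]
    rfl
  have hnd : (polarBilin Q').Nondegenerate := nondegenerate_iff.2 fun x hx => by
    refine L.map_eq_zero_iff.mp (polar_ext hQ fun y => ?_)
    have := hx (L.symm y)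
    rw [show polar Q' x (L.symm y) = polar Q (L x) (L (L.symm y)) by simp [polar, hQ'v], L.apply_symm_apply] at this
    exact this
  have hiso : ∀ (t : (Cfsg.isometryGroup F ⇑Q)) (v), Q' (Matrix.reindexAlgEquiv F F e (t : GL ι F).1 *ᵥ v) = Q' v := fun t v => by
    rw [hQ'v, hQ'v, hR, L.apply_symm_apply, mem_isometryGroup.1 t.2]
  obtain ⟨k', hk', hk's⟩ := CfsgLib.FormConj.exists_orth_conj Q' hnd (A := Matrix.reindexAlgEquiv F F e (s : GL ι F).1)
    (B := Matrix.reindexAlgEquiv F F e (s' : GL ι F).1) (P := Matrix.reindexAlgEquiv F F e g.1) hrF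
    (by rw [← map_pow, ← Units.val_pow_eq_pow_val, ← SubgroupClass.coe_pow, hsr]; simp)
    hr (hiso s) (hiso s')
    ((Matrix.isUnit_iff_isUnit_det _).1 (g.isUnit.map (Matrix.reindexAlgEquiv F F e)))
    (by rw [← map_mul, ← map_mul, ← Units.val_mul, hg]; rfl)
  let k₀ : (ι → F) ≃ₗ[F] (ι → F) := L.symm.trans (k'.trans L)
  have hk₀ : k₀ ∈ isom Q := fun v => by
    show Q (L (k' (L.symm v))) = Q v
    rw [← hQ'v, hk', hQ'v, L.apply_symm_apply]
  refine ⟨(isoEquiv Q).symm ⟨k₀, hk₀⟩, Subtype.ext (glEquiv.injective (LinearEquiv.ext fun v => ?_))⟩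
  have hK : ∀ w, glEquiv (((isoEquiv Q).symm ⟨k₀, hk₀⟩ : (Cfsg.isometryGroup F ⇑Q)) : GL ι F) w = k₀ w := fun w => by
    rw [← coe_isoEquiv, MulEquiv.apply_symm_apply]
  rw [Subgroup.coe_mul, Subgroup.coe_mul, map_mul, map_mul]
  show glEquiv (((isoEquiv Q).symm ⟨k₀, hk₀⟩ : (Cfsg.isometryGroup F ⇑Q)) : GL ι F) (glEquiv (s : GL ι F) v) =
    glEquiv (s' : GL ι F) (glEquiv (((isoEquiv Q).symm ⟨k₀, hk₀⟩ : (Cfsg.isometryGroup F ⇑Q)) : GL ι F) v)
  rw [hK, hK, glEquiv_apply, glEquiv_apply]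
  have h := hk's (L.symm v)
  rw [hR, hR, L.apply_symm_apply] at h
  show L (k' (L.symm ((s : GL ι F).1 *ᵥ v))) = (s' : GL ι F).1 *ᵥ L (k' (L.symm v))
  rw [h, L.apply_symm_apply]

variable (h : Simil.Good Q)
include h

theorem two_le_card : 2 ≤ Fintype.card ι := by
  obtain ⟨e, f, hef⟩ := h.hyp
  have := hef.two_mul_le
  simp at this
  omega

theorem glEquiv_comm {a b : GL ι F} (hab : a * b = b * a) (v : ι → F) :
    glEquiv a (glEquiv b v) = glEquiv b (glEquiv a v) := by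
  rw [glEquiv_apply, glEquiv_apply, glEquiv_apply, glEquiv_apply, mulVec_mulVec, mulVec_mulVec, ← Units.val_mul,
    ← Units.val_mul, hab]

/-- The centraliser of a semisimple isometry of odd order. -/
theorem centraliser_facts {s : (Cfsg.isometryGroup F ⇑Q)} {r : ℕ} (hr : Odd r) (hrF : (r : F) ≠ 0) (hsr : s ^ r = 1) :
    (∃ a : (Cfsg.isometryGroup F ⇑Q), a * s = s * a ∧ (a : GL ι F).1.det = 1 ∧ a ∉ Cfsg.Omega F ⇑Q) ∧
      ((∃ t : (Cfsg.isometryGroup F ⇑Q), t * s = s * t ∧ (t : GL ι F).1.det = -1) ∨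
        ∀ c : Simil.Sim Q, (c : GL ι F) * (s : GL ι F) = (s : GL ι F) * (c : GL ι F) → Simil.sign h c = 1) := by
  classical
  obtain ⟨σ, hσ⟩ : ∃ σ, σ = glEquiv (s : GL ι F) := ⟨_, rfl⟩
  have hσQ : ∀ v, Q (σ v) = Q v := fun v => by rw [hσ, glEquiv_apply]; exact mem_isometryGroup.1 s.2 v
  have hσr : ∀ v, (σ ^ r) v = v := fun v => by
    rw [hσ, ← pow_glEquiv, ← SubgroupClass.coe_pow, hsr]
    simp
  have hcomm : ∀ u : isom Q, (∀ v, (u : (ι → F) ≃ₗ[F] (ι → F)) (σ v) = σ ((u : (ι → F) ≃ₗ[F] (ι → F)) v)) →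
      (isoEquiv Q).symm u * s = s * (isoEquiv Q).symm u := fun u hu => by
    refine (isoEquiv Q).injective ?_
    rw [map_mul, map_mul, MulEquiv.apply_symm_apply]
    refine Subtype.ext (LinearEquiv.ext fun v => ?_)
    rw [hσ] at hu
    exact hu v
  let K : Submodule F (ι → F) := LinearMap.ker ((σ : (ι → F) →ₗ[F] (ι → F)) - LinearMap.id)
  have hK : ∀ v, v ∈ K ↔ σ v = v := fun v => by simp [K, sub_eq_zero]
  by_cases hK0 : ∀ v, σ v = v → v = 0
  · haveI : Nonempty ι := Fintype.card_pos_iff.mp (by have := two_le_card h; omega)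
    have hdet : ∀ {c : (ι → F) →ₗ[F] (ι → F)} {μ : F}, μ ≠ 0 → (∀ v, c (σ v) = σ (c v)) → (∀ v, Q (c v) = μ * Q v) →
        LinearMap.det c = μ ^ (Fintype.card ι / 2) := fun hμ h1 h2 => by
      rw [← Module.finrank_fintype_fun_eq_card F]
      exact det_of_commute h.nondeg hσQ hr hσr hK0 hμ h1 h2
    obtain ⟨u, hu, hspin⟩ := exists_spin_neg h.two_ne h.nondeg hσQ hr hrF hσr hK0
    have hd : (((isoEquiv Q).symm u : (Cfsg.isometryGroup F ⇑Q)) : GL ι F).1.det = 1 := by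
      rw [← det_glEquiv, ← coe_isoEquiv, MulEquiv.apply_symm_apply, hdet one_ne_zero hu (fun v => by
        rw [one_mul]; exact u.2 v), one_pow]
    refine ⟨⟨_, hcomm u hu, hd, fun hmem => ?_⟩, Or.inr fun c hc => ?_⟩
    · rw [mem_Omega_iff_kernels Q h.two_ne h.nondeg (two_le_card h), MulEquiv.apply_symm_apply] at hmem
      rw [hspin, hmem.1] at hmem
      exact absurd hmem.2 (by decide)
    · have hd' := hdet (c := (glEquiv (c : GL ι F) : (ι → F) →ₗ[F] (ι → F))) (Simil.mult h c).ne_zero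
        (fun v => by rw [hσ]; exact glEquiv_comm h hc v)
        (fun v => by rw [LinearEquiv.coe_coe, glEquiv_apply]; exact Simil.mult_spec h c v)
      rw [det_glEquiv] at hd'
      refine Units.ext ?_
      rw [Simil.sign_val h, hd', div_self (pow_ne_zero _ (Simil.mult h c).ne_zero), Units.val_one]
  · -- there are fixed vectors
    push Not at hK0
    have hσi : ∀ (i : ℕ) (v : ι → F), σ v = v → (σ ^ i) v = v := fun i => by
      induction i with
      | zero => exact fun v _ => rfl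
      | succ i ih => intro v hv; rw [pow_succ]; show (σ ^ i) (σ v) = v; rw [hv, ih v hv]
    have hpi : ∀ (i : ℕ) (v w : ι → F), polar Q ((σ ^ i) v) ((σ ^ i) w) = polar Q v w := fun i => by
      induction i with
      | zero => exact fun v w => rfl
      | succ i ih => intro v w; rw [pow_succ]; exact (ih (σ v) (σ w)).trans (polar_apply hσQ v w)
    have hd : Disjoint K (perp Q K) := by
      rw [Submodule.disjoint_def]
      intro v hv hvp
      refine polar_ext h.nondeg fun y => ?_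
      have hσsum : σ (∑ i ∈ Finset.range r, (σ ^ i) y) = ∑ i ∈ Finset.range r, (σ ^ i) y := by
        rw [map_sum]
        have h1 : ∀ i, σ ((σ ^ i) y) = (σ ^ (i + 1)) y := fun i => by rw [pow_succ']; rfl
        simp only [h1]
        have h3 := Finset.sum_range_succ' (fun i => (σ ^ i) y) r
        rw [Finset.sum_range_succ, hσr, show (σ ^ 0) y = y from rfl, add_left_inj] at h3
        exact h3.symm
      have h4 := mem_perp.mp hvp _ ((hK _).mpr hσsum)
      have h5 : ∀ i, polar Q v ((σ ^ i) y) = polar Q v y := fun i => by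
        conv_lhs => rw [← hσi i v ((hK v).mp hv)]
        exact hpi i v y
      rw [← polarBilin_apply_apply, map_sum, Finset.sum_congr rfl (fun i _ =>
        (polarBilin_apply_apply Q v ((σ ^ i) y)).trans (h5 i)), Finset.sum_const, Finset.card_range, nsmul_eq_mul] at h4
      exact (mul_eq_zero.mp h4).resolve_left hrF
    -- the dimension of the fixed space is even
    have hpK : ∀ v ∈ perp Q K, σ v ∈ perp Q K := fun v hv => mem_perp.mpr fun w hw => by
      rw [← (hK w).mp hw, polar_apply hσQ, mem_perp.mp hv w hw]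
    let σ' : perp Q K ≃ₗ[F] perp Q K := LinearEquiv.ofBijective ((σ : (ι → F) →ₗ[F] (ι → F)).restrict hpK)
      (Finite.injective_iff_bijective.mp fun a b hab => Subtype.ext (σ.injective (congrArg Subtype.val hab)))
    have hσ'i : ∀ (i : ℕ) (v : perp Q K), ((σ' ^ i) v : ι → F) = (σ ^ i) (v : ι → F) := fun i => by
      induction i with
      | zero => exact fun v => rfl
      | succ i ih => intro v; rw [pow_succ σ', pow_succ σ]; exact ih (σ' v)
    obtain ⟨j, hj⟩ := even_finrank_of_moving (Q := Q.comp (perp Q K).subtype)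
      (nondegenerate_comp_subtype (by rw [perp_perp h.nondeg]; exact hd.symm)) (s := σ')
      (fun v => hσQ v) hr (fun v => Subtype.ext ((hσ'i r v).trans (hσr _))) (fun v hv => by
        refine Subtype.ext (Submodule.disjoint_def.mp hd _ ?_ v.2)
        exact (hK _).mpr (congrArg Subtype.val hv))
    have hdim : 2 ≤ Module.finrank F K := by
      have h1 : Module.finrank F K ≠ 0 := fun h1 => by
        obtain ⟨v, hv, hv0⟩ := hK0
        exact hv0 ((Submodule.mem_bot F).mp (Submodule.finrank_eq_zero.mp h1 ▸ (hK v).mpr hv))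
      obtain ⟨n, hn⟩ := h.card
      have h2 := finrank_perp h.nondeg K
      have h3 := Submodule.finrank_le K
      rw [Module.finrank_fintype_fun_eq_card] at h2 h3
      omega
    have := Fintype.ofFinite F
    obtain ⟨ν, hν⟩ := FiniteField.exists_nonsquare (F := F) (fun hc => h.two_ne (by
      have := ringChar.eq_iff.1 hc
      exact CharTwo.two_eq_zero))
    have hν0 : ν ≠ 0 := fun e => hν (e ▸ IsSquare.zero)
    have hndK := nondegenerate_comp_subtype hd
    obtain ⟨u, hu1⟩ := exists_value hndK hdim (one_ne_zero : (1 : F) ≠ 0)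
    obtain ⟨w, hw1⟩ := exists_value hndK hdim hν0
    have hu : Q (u : ι → F) ≠ 0 := by
      show (Q.comp K.subtype) u ≠ 0
      rw [hu1]
      exact one_ne_zero
    have hw : Q (w : ι → F) ≠ 0 := by
      show (Q.comp K.subtype) w ≠ 0
      rw [hw1]
      exact hν0
    have hrc : ∀ (z : K) (hz : Q (z : ι → F) ≠ 0) (v : ι → F), refl Q (z : ι → F) hz (σ v) = σ (refl Q (z : ι → F) hz v) :=
      fun z hz v => by
        have e := polar_apply hσQ v (z : ι → F)
        rw [(hK _).mp z.2] at e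
        rw [refl_apply, refl_apply, map_sub, map_smul, (hK _).mp z.2, e]
    let ru : isom Q := ⟨refl Q (u : ι → F) hu, refl_mem_isom hu⟩
    let rw' : isom Q := ⟨refl Q (w : ι → F) hw, refl_mem_isom hw⟩
    have hdetr : ∀ a : isom Q, detSign h.two_ne h.nondeg a = 1 → (((isoEquiv Q).symm a : (Cfsg.isometryGroup F ⇑Q)) : GL ι F).1.det = 1 :=
      fun a ha => (detSign_eq_one_iff Q h.two_ne h.nondeg _).mp (by rw [MulEquiv.apply_symm_apply]; exact ha)
    refine ⟨⟨(isoEquiv Q).symm (ru * rw'), hcomm _ fun v => ?_, hdetr _ ?_, fun hmem => ?_⟩,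
      Or.inl ⟨(isoEquiv Q).symm ru, hcomm _ fun v => hrc u hu v, ?_⟩⟩
    · show refl Q (u : ι → F) hu (refl Q (w : ι → F) hw (σ v)) = σ (refl Q (u : ι → F) hu (refl Q (w : ι → F) hw v))
      rw [hrc, hrc]
    · rw [map_mul, detSign_refl, detSign_refl]; rfl
    · rw [mem_Omega_iff_kernels Q h.two_ne h.nondeg (two_le_card h), MulEquiv.apply_symm_apply, map_mul, map_mul,
        spin_refl, spin_refl, if_pos, if_neg] at hmem
      · exact absurd hmem.2 (by decide)
      · show ¬ IsSquare ((Q.comp K.subtype) w)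
        rw [hw1]
        exact hν
      · show IsSquare ((Q.comp K.subtype) u)
        rw [hu1]
        exact IsSquare.one
    · rw [← det_glEquiv, ← coe_isoEquiv, MulEquiv.apply_symm_apply]
      exact det_refl hu

/-- A lift of an element of odd order. -/
theorem exists_lift {x : MulAut (Cfsg.POmega F ⇑Q)} (hx : x ∈ Cfsg.pgoAut F ⇑Q) {r : ℕ} (hr : Odd r)
    (hxr : x ^ r = 1) : ∃ s : (Cfsg.isometryGroup F ⇑Q), s ∈ Cfsg.Omega F ⇑Q ∧ s ^ r = 1 ∧ Simil.act Q (Simil.ofIso s) = x := by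
  obtain ⟨φ, -, hker⟩ := Simil.exists_pgo_hom h
  obtain ⟨j, hj⟩ := hr
  have hφ : φ ⟨x, hx⟩ = 1 := by
    have h1 : ∀ y : Multiplicative (ZMod 2 × ZMod 2), y ^ 2 = 1 := by decide
    have h2 : φ ⟨x, hx⟩ ^ r = 1 := by
      rw [← map_pow, show (⟨x, hx⟩ : ↥(Cfsg.pgoAut F ⇑Q)) ^ r = 1 from Subtype.ext hxr, map_one]
    rwa [hj, pow_succ, pow_mul, h1, one_pow, one_mul] at h2
  have hpso : x ∈ Cfsg.psoAut F ⇑Q := by
    have : (⟨x, hx⟩ : ↥(Cfsg.pgoAut F ⇑Q)) ∈ φ.ker := hφ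
    rw [hker] at this
    exact this
  rw [Simil.psoAut_eq] at hpso
  obtain ⟨k, hk, rfl⟩ := hpso
  let k' : (Cfsg.isometryGroup F ⇑Q) := ⟨k, hk.1⟩
  obtain ⟨w, hw⟩ : ∃ w : (Cfsg.isometryGroup F ⇑Q), w = (k' ^ (j + 1)) * (k' ^ (j + 1)) := ⟨_, rfl⟩
  have hwΩ : w ∈ Cfsg.Omega F ⇑Q := hw ▸ sq_mem_Omega h.nondeg (Simil.hq h) _
  have hwx : Simil.act Q (Simil.ofIso w) = Simil.act Q k := by
    rw [hw, map_mul, map_mul, map_pow, map_pow, ← pow_add, show j + 1 + (j + 1) = r + 1 by omega, pow_succ]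
    show (Simil.act Q k) ^ r * Simil.act Q k = _
    rw [hxr, one_mul]
  obtain ⟨c, hc⟩ := (Simil.act_eq_one_iff h (Simil.ofIso (w ^ r))).mp (by
    rw [map_pow, map_pow, hwx, hxr])
  refine ⟨w ^ (r + 1), Subgroup.pow_mem _ hwΩ _, ?_, ?_⟩
  · have hc1 : (c : F) * c = 1 := by
      obtain ⟨v, hv⟩ := Simil.exists_value_one h
      have h1 := mem_isometryGroup.1 (w ^ r).2 v
      rw [show ((w ^ r : (Cfsg.isometryGroup F ⇑Q)) : GL ι F) = Matrix.GeneralLinearGroup.scalar ι c from hc, Simil.scalar_mulVec h,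
        QuadraticMap.map_smul, hv, smul_eq_mul, mul_one] at h1
      exact h1
    have hc2 : (w ^ r) ^ 2 = 1 := by
      refine Subtype.ext ?_
      rw [SubgroupClass.coe_pow, show ((w ^ r : (Cfsg.isometryGroup F ⇑Q)) : GL ι F) = Matrix.GeneralLinearGroup.scalar ι c from hc,
        ← map_pow, show c ^ 2 = 1 from Units.ext (by rw [pow_two, Units.val_mul, hc1, Units.val_one]), map_one]
      rfl
    rw [← pow_mul, mul_comm, pow_mul, show r + 1 = 2 * (j + 1) by omega, pow_mul, hc2, one_pow]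
  · rw [map_pow, map_pow, hwx, pow_succ, hxr, one_mul]

theorem isometry_mem_poAut (k : (Cfsg.isometryGroup F ⇑Q)) : Simil.act Q (Simil.ofIso k) ∈ Cfsg.poAut F ⇑Q :=
  Subgroup.subset_closure ⟨(k : GL ι F), k.2, (Simil.induced_iff (Simil.ofIso k) _).2 rfl⟩

omit h in
theorem poAut_le : Cfsg.poAut F ⇑Q ≤ Cfsg.pgoAut F ⇑Q :=
  (Subgroup.closure_le _).mpr fun _ ⟨g, hg, hind⟩ => Subgroup.subset_closure ⟨g, Simil.iso_le_sim hg, hind⟩

omit h in
theorem isConjUnder_mono {X : Type*} [Group X] {H K : Subgroup X} (hHK : H ≤ K) {x y : X}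
    (hxy : Cfsg.IsConjUnder H x y) : Cfsg.IsConjUnder K x y :=
  hxy.imp fun _ hh => ⟨hHK hh.1, hh.2⟩

/-- Class fusion for elements of odd order prime to the characteristic. -/
theorem class_fusion {x : MulAut (Cfsg.POmega F ⇑Q)} (hx : x ∈ Cfsg.pgoAut F ⇑Q) {r : ℕ} (hr : Odd r)
    (hrF : (r : F) ≠ 0) (hxr : x ^ r = 1) (G : Subgroup (MulAut (Cfsg.POmega F ⇑Q)))
    (hG : G = (Simil.sign h).ker.map (Simil.act Q)) :
    (∀ y, (Cfsg.IsConjUnder (Cfsg.Inn (Cfsg.POmega F ⇑Q)) x y ↔ Cfsg.IsConjUnder G x y) ∧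
      (Cfsg.IsConjUnder (Cfsg.psoAut F ⇑Q) x y ↔ Cfsg.IsConjUnder G x y)) ∧
      ∀ y, Cfsg.IsConjUnder (Cfsg.poAut F ⇑Q) x y ↔ Cfsg.IsConjUnder (Cfsg.pgoAut F ⇑Q) x y := by
  classical
  subst hG
  obtain ⟨s, -, hsr, rfl⟩ := exists_lift h hx hr hxr
  have hfix : ∀ g : Simil.Sim Q, ∃ (k : (Cfsg.isometryGroup F ⇑Q)) (c : Simil.Sim Q), g = Simil.ofIso k * c ∧
      (c : GL ι F) * (s : GL ι F) = (s : GL ι F) * (c : GL ι F) := by
    intro g
    obtain ⟨k, hk⟩ := exists_conj h.nondeg hr hrF hsr (s' := Simil.conjO g s) (g := (g : GL ι F)) (by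
      show _ = (g : GL ι F) * (s : GL ι F) * (g : GL ι F)⁻¹ * (g : GL ι F)
      rw [inv_mul_cancel_right])
    refine ⟨k, (Simil.ofIso k)⁻¹ * g, by rw [mul_inv_cancel_left], ?_⟩
    have hk' : (k : GL ι F) * (s : GL ι F) = (g : GL ι F) * (s : GL ι F) * (g : GL ι F)⁻¹ * (k : GL ι F) :=
      congrArg Subtype.val hk
    show (k : GL ι F)⁻¹ * (g : GL ι F) * (s : GL ι F) = (s : GL ι F) * ((k : GL ι F)⁻¹ * (g : GL ι F))
    have h1 : (s : GL ι F) = (k : GL ι F)⁻¹ * ((g : GL ι F) * (s : GL ι F) * (g : GL ι F)⁻¹ * (k : GL ι F)) := by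
      rw [← hk', inv_mul_cancel_left]
    conv_rhs => rw [h1]
    group
  have hactc : ∀ c : Simil.Sim Q, (c : GL ι F) * (s : GL ι F) = (s : GL ι F) * (c : GL ι F) →
      Simil.act Q c * Simil.act Q (Simil.ofIso s) * (Simil.act Q c)⁻¹ = Simil.act Q (Simil.ofIso s) := fun c hc => by
    rw [← map_mul, show c * Simil.ofIso s = Simil.ofIso s * c from Subtype.ext hc, map_mul, mul_inv_cancel_right]
  have hsign : ∀ k : (Cfsg.isometryGroup F ⇑Q), ((Simil.sign h (Simil.ofIso k) : Fˣ) : F) = (k : GL ι F).1.det := fun k => by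
    rw [Simil.sign_val h, Simil.mult_ofIso h, Units.val_one, one_pow, div_one]
    rfl
  obtain ⟨⟨a, has, had, haΩ⟩, hB⟩ := centraliser_facts h hr hrF hsr
  have hinnG : Cfsg.Inn (Cfsg.POmega F ⇑Q) ≤ (Simil.sign h).ker.map (Simil.act Q) := fun β hβ => by
    obtain ⟨w, hw, rfl⟩ := (Simil.mem_inn_iff β).1 hβ
    refine ⟨Simil.ofIso w, MonoidHom.mem_ker.2 (Units.ext ?_), rfl⟩
    rw [hsign, Units.val_one]
    exact (detSign_eq_one_iff Q h.two_ne h.nondeg w).1 ((mem_Omega_iff_kernels Q h.two_ne h.nondeg (two_le_card h) w).1 hw).1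
  have hpsoG : Cfsg.psoAut F ⇑Q ≤ (Simil.sign h).ker.map (Simil.act Q) := by
    rw [Simil.psoAut_eq]
    rintro β ⟨k, hk, rfl⟩
    refine ⟨k, MonoidHom.mem_ker.2 (Units.ext ?_), rfl⟩
    exact (hsign ⟨k, hk.1⟩).trans ((congrArg Units.val (MonoidHom.mem_ker.1 hk.2)))
  have hGT : ∀ y, Cfsg.IsConjUnder ((Simil.sign h).ker.map (Simil.act Q)) (Simil.act Q (Simil.ofIso s)) y →
      Cfsg.IsConjUnder (Cfsg.Inn (Cfsg.POmega F ⇑Q)) (Simil.act Q (Simil.ofIso s)) y := by
    rintro y ⟨-, ⟨g, hg, rfl⟩, rfl⟩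
    obtain ⟨k, c, hgk, hc⟩ := hfix g
    -- adjust to determinant one
    obtain ⟨k₁, hk₁, hk₁d⟩ : ∃ k₁ : (Cfsg.isometryGroup F ⇑Q), Simil.act Q g * Simil.act Q (Simil.ofIso s) * (Simil.act Q g)⁻¹ =
        Simil.act Q (Simil.ofIso k₁) * Simil.act Q (Simil.ofIso s) * (Simil.act Q (Simil.ofIso k₁))⁻¹ ∧
        (k₁ : GL ι F).1.det = 1 := by
      have e : Simil.act Q g * Simil.act Q (Simil.ofIso s) * (Simil.act Q g)⁻¹ =
          Simil.act Q (Simil.ofIso k) * Simil.act Q (Simil.ofIso s) * (Simil.act Q (Simil.ofIso k))⁻¹ := by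
        conv_rhs => rw [← hactc c hc]
        rw [hgk, map_mul]
        group
      rcases Simil.sign_sq h (Simil.ofIso k) with h1 | h1
      · exact ⟨k, e, by rw [← hsign, h1, Units.val_one]⟩
      · rcases hB with ⟨t, hts, htd⟩ | hB
        · refine ⟨k * t, ?_, ?_⟩
          · rw [e]
            conv_lhs => rw [← hactc (Simil.ofIso t) (congrArg Subtype.val hts)]
            rw [map_mul, map_mul]
            group
          · rw [Subgroup.coe_mul, Units.val_mul, Matrix.det_mul, htd, ← hsign, h1, Units.val_neg, Units.val_one,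
              neg_one_mul, neg_neg]
        · refine ⟨k, e, ?_⟩
          have hs1 : Simil.sign h (Simil.ofIso k) = 1 := by
            have := MonoidHom.mem_ker.1 hg
            rwa [hgk, map_mul, hB c hc, mul_one] at this
          rw [← hsign, hs1, Units.val_one]
    rcases Simil.special_dichotomy h had haΩ hk₁d with h1 | h1
    · exact ⟨_, (Simil.mem_inn_iff _).2 ⟨k₁, h1, rfl⟩, hk₁⟩
    · refine ⟨_, (Simil.mem_inn_iff _).2 ⟨k₁ * a, h1, rfl⟩, hk₁.trans ?_⟩
      conv_lhs => rw [← hactc (Simil.ofIso a) (congrArg Subtype.val has)]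
      rw [map_mul, map_mul]
      group
  refine ⟨fun y => ⟨⟨isConjUnder_mono hinnG, hGT y⟩,
    ⟨isConjUnder_mono hpsoG, fun hy => isConjUnder_mono (Simil.inn_le_pso h) (hGT y hy)⟩⟩,
    fun y => ⟨isConjUnder_mono poAut_le, ?_⟩⟩
  rintro ⟨γ, hγ, rfl⟩
  rw [Simil.pgoAut_eq] at hγ
  obtain ⟨g, rfl⟩ := hγ
  obtain ⟨k, c, rfl, hc⟩ := hfix g
  refine ⟨_, isometry_mem_poAut h k, ?_⟩
  conv_rhs => rw [← hactc c hc]
  rw [map_mul]
  group

end CfsgLib.OrthFusion
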