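import Cfsg.Agent.Forms.Spinor

/-!
The sign of an isometry on the vectors of value one, when it acts freely on an orthogonal summand.
-/

set_option autoImplicit false

namespace CfsgLib.OrthFusion

open QuadraticMap
open CfsgLib.Forms (isom levelPerm)

theorem cycleType_eq_replicate {α : Type*} [Fintype α] [DecidableEq α] {σ : Equiv.Perm α} {N : ℕ} (hσ : σ ^ N = 1)
    (hfree : ∀ x, σ x ≠ x → ∀ i, (σ ^ i) x = x → N ∣ i) :
    σ.cycleType = Multiset.replicate (Multiset.card σ.cycleType) N := by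
  refine Multiset.eq_replicate_card.mpr fun n hn => ?_
  obtain ⟨c, hc, rfl⟩ := Multiset.mem_map.mp (σ.cycleType_def ▸ hn)
  have hcyc := (Equiv.Perm.mem_cycleFactorsFinset_iff.mp hc).1
  obtain ⟨x, hx⟩ := hcyc.nonempty_support
  have hcx : c = σ.cycleOf x := Equiv.Perm.cycle_is_cycleOf hx hc
  have hσx : σ x ≠ x := Equiv.Perm.mem_support.mp (Equiv.Perm.mem_cycleFactorsFinset_support_le hc hx)
  refine Nat.dvd_antisymm ((Equiv.Perm.dvd_of_mem_cycleType hn).trans (orderOf_dvd_of_pow_eq_one hσ))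
    (hfree x hσx _ ?_)
  have h1 : c ^ (Finset.card c.support) = 1 := by rw [← hcyc.orderOf]; exact pow_orderOf_eq_one c
  have h2 := congrArg (fun p : Equiv.Perm α => p x) h1
  simp only [Equiv.Perm.one_apply] at h2
  show (σ ^ Finset.card c.support) x = x
  rw [← Equiv.Perm.cycleOf_pow_apply_self, ← hcx]
  exact h2

theorem dvd_card_of_free {α : Type*} [Fintype α] [DecidableEq α] {σ : Equiv.Perm α} {N : ℕ} (hσ : σ ^ N = 1)
    (hne : ∀ x, σ x ≠ x) (hfree : ∀ x, ∀ i, (σ ^ i) x = x → N ∣ i) : N ∣ Fintype.card α := by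
  have h : σ.cycleType.sum = Fintype.card α := by
    rw [Equiv.Perm.sum_cycleType, Finset.card_eq_iff_eq_univ]
    exact Finset.eq_univ_of_forall fun x => Equiv.Perm.mem_support.mpr (hne x)
  rw [← h, cycleType_eq_replicate hσ fun x _ => hfree x, Multiset.sum_replicate]
  exact ⟨_, mul_comm _ _⟩

variable {F V : Type*} [Field F] [Finite F] [AddCommGroup V] [Module F V] [FiniteDimensional F V]
  {Q : QuadraticForm F V}

theorem sign_levelPerm [Fintype {x : V // Q x = 1}] [DecidableEq {x : V // Q x = 1}] (h2 : (2 : F) ≠ 0)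
    {W W' : Submodule F V} (hc : IsCompl W W') (horth : ∀ w ∈ W, ∀ w' ∈ W', polar Q w w' = 0) (u : isom Q)
    (hW' : ∀ w ∈ W', (u : V ≃ₗ[F] V) w = w) (hW : ∀ w ∈ W, (u : V ≃ₗ[F] V) w ∈ W) {N : ℕ} (hN0 : 0 < N)
    (hN : Even N) (hu : u ^ N = 1) (hfree : ∀ w ∈ W, w ≠ 0 → ∀ i, ((u : V ≃ₗ[F] V) ^ i) w = w → N ∣ i)
    (hlev : ∃ j, Odd j ∧ Nat.card {w : V // w ∈ W ∧ Q w = 1} = N * j) :
    Equiv.Perm.sign (levelPerm Q u) = -1 := by
  classical
  have : Finite V := Module.finite_of_finite F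
  have := Fintype.ofFinite V
  obtain ⟨σ, hσdef⟩ : ∃ σ, σ = levelPerm Q u := ⟨_, rfl⟩
  rw [← hσdef]
  have hN1 : ¬ N ∣ 1 := fun h => by
    obtain ⟨k, hk⟩ := hN
    have := Nat.dvd_one.mp h
    omega
  have hpow : ∀ (i : ℕ) (x : {x : V // Q x = 1}), ((σ ^ i) x : V) = ((u : V ≃ₗ[F] V) ^ i) x := fun i x => by
    rw [hσdef, ← map_pow]
    rfl
  have hσN : σ ^ N = 1 := by rw [hσdef, ← map_pow, hu, map_one]
  have hWi : ∀ (i : ℕ) (w : V), w ∈ W → ((u : V ≃ₗ[F] V) ^ i) w ∈ W := fun i => by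
    induction i with
    | zero => exact fun w hw => hw
    | succ i ih => intro w hw; rw [pow_succ]; exact ih _ (hW w hw)
  have hW'i : ∀ (i : ℕ) (w : V), w ∈ W' → ((u : V ≃ₗ[F] V) ^ i) w = w := fun i => by
    induction i with
    | zero => exact fun w _ => rfl
    | succ i ih => intro w hw; rw [pow_succ]; show ((u : V ≃ₗ[F] V) ^ i) ((u : V ≃ₗ[F] V) w) = w; rw [hW' w hw, ih w hw]
  have huni : ∀ {a b a' b' : V}, a ∈ W → b ∈ W → a' ∈ W' → b' ∈ W' → a + a' = b + b' → a = b ∧ a' = b' := by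
    intro a b a' b' ha hb ha' hb' h
    have h0 : a - b ∈ W ⊓ W' := ⟨sub_mem ha hb, by
      rw [show a - b = b' - a' by rw [sub_eq_sub_iff_add_eq_add, h, add_comm]]; exact sub_mem hb' ha'⟩
    rw [hc.inf_eq_bot, Submodule.mem_bot, sub_eq_zero] at h0
    subst h0
    exact ⟨rfl, add_left_cancel h⟩
  have hQadd : ∀ {a b : V}, a ∈ W → b ∈ W' → Q (a + b) = Q a + Q b := fun ha hb => by
    rw [QuadraticMap.map_add (⇑Q), horth _ ha _ hb, add_zero]
  have hdec : ∀ x : V, ∃ w ∈ W, ∃ w' ∈ W', w + w' = x := fun x =>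
    Submodule.mem_sup.mp (hc.sup_eq_top ▸ Submodule.mem_top : x ∈ W ⊔ W')
  have hfix : ∀ x : {x : V // Q x = 1}, σ x = x ↔ (x : V) ∈ W' := by
    intro x
    constructor
    · intro h
      obtain ⟨w, hw, w', hw', e⟩ := hdec x
      have h1 : (u : V ≃ₗ[F] V) x = x := by rw [hσdef] at h; exact congrArg Subtype.val h
      rw [← e, map_add, hW' w' hw', add_left_inj] at h1
      rcases eq_or_ne w 0 with rfl | hw0
      · rwa [← e, zero_add]
      · exact absurd (hfree w hw hw0 1 (by rwa [pow_one])) hN1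
    · intro h
      rw [hσdef]
      exact Subtype.ext (hW' x h)
  have hfree' : ∀ x : {x : V // Q x = 1}, σ x ≠ x → ∀ i, (σ ^ i) x = x → N ∣ i := by
    intro x hx i hi
    obtain ⟨w, hw, w', hw', e⟩ := hdec x
    have h1 := congrArg Subtype.val hi
    rw [hpow, ← e, map_add, hW'i i w' hw', add_left_inj] at h1
    refine hfree w hw (fun h => hx ((hfix x).mpr ?_)) i h1
    rw [← e, h, zero_add]
    exact hw'
  rw [Equiv.Perm.sign_of_cycleType_eq_replicate hN0 (cycleType_eq_replicate hσN hfree'),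
    if_neg (Nat.not_odd_iff_even.mpr hN)]
  -- the moved vectors, by their component in the fixed summand
  let Fib : W' → Type _ := fun w' => {w : V // w ∈ W ∧ w ≠ 0 ∧ Q w + Q (w' : V) = 1}
  have hdvd : ∀ w', N ∣ Fintype.card (Fib w') := fun w' => by
    have hmap : ∀ w : V, w ∈ W ∧ w ≠ 0 ∧ Q w + Q (w' : V) = 1 →
        (u : V ≃ₗ[F] V) w ∈ W ∧ (u : V ≃ₗ[F] V) w ≠ 0 ∧ Q ((u : V ≃ₗ[F] V) w) + Q (w' : V) = 1 := fun w h =>
      ⟨hW w h.1, fun e => h.2.1 ((u : V ≃ₗ[F] V).map_eq_zero_iff.mp e), by rw [u.2 w]; exact h.2.2⟩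
    let f : Fib w' → Fib w' := fun w => ⟨(u : V ≃ₗ[F] V) w.1, hmap w.1 w.2⟩
    have hf : Function.Bijective f := Finite.injective_iff_bijective.mp fun a b h =>
      Subtype.ext ((u : V ≃ₗ[F] V).injective (congrArg Subtype.val h))
    let τ : Equiv.Perm (Fib w') := Equiv.ofBijective f hf
    have hτ : ∀ (i : ℕ) (w : Fib w'), ((τ ^ i) w).1 = ((u : V ≃ₗ[F] V) ^ i) w.1 := fun i => by
      induction i with
      | zero => exact fun w => rfl
      | succ i ih => intro w; rw [pow_succ, Equiv.Perm.mul_apply, ih, pow_succ]; rfl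
    refine dvd_card_of_free (σ := τ) (Equiv.ext fun w => Subtype.ext ?_) (fun w h => hN1 ?_) fun w i h => ?_
    · rw [hτ, show ((u : V ≃ₗ[F] V) ^ N) = ((u ^ N : isom Q) : V ≃ₗ[F] V) from rfl, hu]
      rfl
    · exact hfree w.1 w.2.1 w.2.2.1 1 ((hτ 1 w).symm.trans (congrArg Subtype.val (show (τ ^ 1) w = w by rwa [pow_one])))
    · exact hfree w.1 w.2.1 w.2.2.1 i ((hτ i w).symm.trans (congrArg Subtype.val h))
  choose j hj using hdvd
  have hM : Fintype.card {x : V // Q x = 1} - Fintype.card (Function.fixedPoints σ) = N * ∑ w', j w' := by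
    rw [Finset.mul_sum, ← Finset.sum_congr rfl fun w' _ => hj w', ← Fintype.card_sigma]
    have e1 : Fintype.card (Function.fixedPoints σ) = Fintype.card {x : {x : V // Q x = 1} // (x : V) ∈ W'} :=
      Fintype.card_congr (Equiv.subtypeEquivRight fun x => hfix x)
    rw [e1, ← Fintype.card_subtype_compl]
    refine (Fintype.card_of_bijective (f := fun p : (w' : W') × Fib w' =>
      (⟨⟨p.2.1 + (p.1 : V), by rw [hQadd p.2.2.1 p.1.2]; exact p.2.2.2.2⟩, fun h => p.2.2.2.1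
        (huni p.2.2.1 (zero_mem _) p.1.2 h (by simp)).1⟩ : {x : {x : V // Q x = 1} // ¬ (x : V) ∈ W'})) ⟨?_, ?_⟩).symm
    · rintro ⟨⟨a', ha'⟩, ⟨a, ha, ha1⟩⟩ ⟨⟨b', hb'⟩, ⟨b, hb, hb1⟩⟩ h
      obtain ⟨rfl, rfl⟩ := huni ha hb ha' hb' (congrArg (fun z => z.1.1) h)
      rfl
    · rintro ⟨⟨x, hx⟩, hx'⟩
      obtain ⟨w, hw, w', hw', e⟩ := hdec x
      refine ⟨⟨⟨w', hw'⟩, ⟨w, hw, fun h => hx' ?_, by rw [← hQadd hw hw', e]; exact hx⟩⟩, Subtype.ext (Subtype.ext e)⟩
      show x ∈ W'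
      rw [← e, h, zero_add]
      exact hw'
  rw [hM, Nat.mul_div_cancel_left _ hN0]
  refine Odd.neg_one_pow ?_
  rw [← ZMod.natCast_eq_one_iff_odd, Nat.cast_sum, ← Finset.add_sum_erase _ _ (Finset.mem_univ (0 : W'))]
  have hj0 : Odd (j 0) := by
    obtain ⟨j₀, hj₀, hcard⟩ := hlev
    have : Fintype.card (Fib 0) = N * j₀ := by
      rw [← hcard, Nat.card_eq_fintype_card]
      refine Fintype.card_congr (Equiv.subtypeEquivRight fun w => ?_)
      constructor
      · rintro ⟨hw, -, hq⟩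
        exact ⟨hw, by simpa using hq⟩
      · rintro ⟨hw, hq⟩
        exact ⟨hw, fun h => by rw [h, QuadraticMap.map_zero] at hq; exact zero_ne_one hq, by simpa using hq⟩
    rw [hj 0] at this
    rwa [Nat.eq_of_mul_eq_mul_left hN0 this]
  rw [(ZMod.natCast_eq_one_iff_odd).mpr hj0, add_eq_left]
  refine Finset.sum_involution (fun w' _ => -w') (fun w' _ => ?_) (fun w' hw' _ h => ?_) (fun w' hw' => ?_)
    (fun w' _ => neg_neg w')
  · have : Fintype.card (Fib (-w')) = Fintype.card (Fib w') := Fintype.card_congr (Equiv.subtypeEquivRight fun w => by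
      rw [Submodule.coe_neg, QuadraticMap.map_neg])
    rw [hj, hj] at this
    rw [Nat.eq_of_mul_eq_mul_left hN0 this]
    exact CharTwo.add_self_eq_zero _
  · refine (Finset.mem_erase.mp hw').1 (Subtype.ext ?_)
    have : (2 : F) • (w' : V) = 0 := by
      rw [two_smul]
      nth_rw 1 [← h]
      simp
    rwa [smul_eq_zero_iff_right h2] at this
  · exact Finset.mem_erase.mpr ⟨fun h => (Finset.mem_erase.mp hw').1 (neg_eq_zero.mp h), Finset.mem_univ _⟩

end CfsgLib.OrthFusion
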