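import Cfsg.Agent.OrthFusion.Extend
import Cfsg.Agent.Hermitian.Basic

/-!
A fixed-point-free isometry of odd order prime to the characteristic is centralised by a proper
isometry of spinor norm minus one.
-/

set_option autoImplicit false
set_option maxHeartbeats 1000000

namespace CfsgLib.OrthFusion

open QuadraticMap
open CfsgLib.Forms (isom perp mem_perp spin detSign)

variable {F : Type*} [Field F]

theorem odd_natCard [Finite F] (h2 : (2 : F) ≠ 0) : Odd (Nat.card F) := by
  have := Fintype.ofFinite F
  rw [Nat.card_eq_fintype_card, Nat.odd_iff]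
  exact FiniteField.odd_card_of_char_ne_two fun h => h2 (by
    have := ringChar.eq_iff.1 h
    exact CharTwo.two_eq_zero)

theorem natCard_fibre [Finite F] {X : Type*} [AddCommGroup X] [Module F X] [FiniteDimensional F X]
    (φ : Module.Dual F X) (hφ : φ ≠ 0) (c : F) :
    Nat.card {x : X // φ x = c} = Nat.card F ^ (Module.finrank F X - 1) := by
  obtain ⟨x₀, hx₀⟩ := LinearMap.surjective hφ c
  have h := Module.Dual.finrank_ker_add_one_of_ne_zero hφ
  rw [show Module.finrank F X - 1 = Module.finrank F (LinearMap.ker φ) by omega, ← Module.natCard_eq_pow_finrank]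
  exact Nat.card_congr
    { toFun := fun x => ⟨x.1 - x₀, by rw [LinearMap.mem_ker, map_sub, x.2, hx₀, sub_self]⟩
      invFun := fun x => ⟨(x : X) + x₀, by rw [map_add, LinearMap.mem_ker.mp x.2, zero_add, hx₀]⟩
      left_inv := fun x => Subtype.ext (sub_add_cancel _ _)
      right_inv := fun x => Subtype.ext (add_sub_cancel_right _ _) }

section Field

variable {X : Type*} [AddCommGroup X] [Module F X] (f : Module.End F X)

theorem commute_adjoin {g : Module.End F X} (hg : g ∈ Algebra.adjoin F {f}) : Commute f g :=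
  Algebra.commute_of_mem_adjoin_of_forall_mem_commute hg fun b hb => by
    rw [Set.mem_singleton_iff.mp hb]; exact Commute.refl f

theorem commute_adjoin' {g h : Module.End F X} (hg : g ∈ Algebra.adjoin F {f}) (hh : h ∈ Algebra.adjoin F {f}) :
    Commute g h :=
  Algebra.commute_of_mem_adjoin_of_forall_mem_commute hh fun b hb => by
    rw [Set.mem_singleton_iff.mp hb]
    exact (commute_adjoin f hg).symm

theorem injective_of_irreducible (hmin : ∀ p : Submodule F X, (∀ x ∈ p, f x ∈ p) → p = ⊥ ∨ p = ⊤)
    {g : Module.End F X} (hg : g ∈ Algebra.adjoin F {f}) (hg0 : g ≠ 0) : Function.Injective g := by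
  rw [← LinearMap.ker_eq_bot]
  refine (hmin (LinearMap.ker g) fun x hx => ?_).resolve_right fun h => hg0 (LinearMap.ker_eq_top.mp h)
  rw [LinearMap.mem_ker] at hx ⊢
  have := congrArg (fun k : Module.End F X => k x) (commute_adjoin f hg).eq
  simp only [Module.End.mul_apply, hx, map_zero] at this
  exact this.symm

theorem bijective_eval (hmin : ∀ p : Submodule F X, (∀ x ∈ p, f x ∈ p) → p = ⊥ ∨ p = ⊤) {x₀ : X} (hx₀ : x₀ ≠ 0) :
    Function.Bijective fun g : Algebra.adjoin F {f} => (g : Module.End F X) x₀ := by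
  refine ⟨fun a b h => ?_, fun y => ?_⟩
  · by_contra hne
    have h1 : ((a : Module.End F X) - b) x₀ = 0 := by rw [LinearMap.sub_apply, sub_eq_zero]; exact h
    exact hx₀ (injective_of_irreducible f hmin (sub_mem a.2 b.2) (sub_ne_zero.mpr fun e => hne (Subtype.ext e))
      (by rw [h1, map_zero]))
  · let p : Submodule F X :=
      (Algebra.adjoin F {f}).toSubmodule.map ((LinearMap.applyₗ : X →ₗ[F] _) x₀)
    have hp : p = ⊤ := by
      refine (hmin p fun x hx => ?_).resolve_left fun h => hx₀ ?_
      · obtain ⟨g, hg, rfl⟩ := hx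
        exact ⟨f * g, (Algebra.adjoin F {f}).mul_mem (Algebra.self_mem_adjoin_singleton F f) hg, rfl⟩
      · rw [← Submodule.mem_bot F, ← h]
        exact ⟨1, one_mem (Algebra.adjoin F {f}), rfl⟩
    obtain ⟨g, hg, e⟩ := (hp ▸ Submodule.mem_top : y ∈ p)
    exact ⟨⟨g, hg⟩, e⟩

/-- The action of the units of the commutative algebra generated by `f`. -/
noncomputable def unitAct : (Algebra.adjoin F {f})ˣ →* (X ≃ₗ[F] X) :=
  (LinearMap.GeneralLinearGroup.generalLinearEquiv F X).toMonoidHom.comp
    (Units.map ((Algebra.adjoin F {f}).val : Algebra.adjoin F {f} →* Module.End F X))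

theorem unitAct_apply (a : (Algebra.adjoin F {f})ˣ) (x : X) :
    unitAct f a x = ((a : Algebra.adjoin F {f}) : Module.End F X) x := rfl

end Field

variable {V : Type*} [AddCommGroup V] [Module F V] [FiniteDimensional F V] {Q : QuadraticForm F V}

theorem pow_apply_eq (s : V ≃ₗ[F] V) (i : ℕ) (v : V) : ((s : V →ₗ[F] V) ^ i) v = (s ^ i) v := by
  induction i generalizing v with
  | zero => rfl
  | succ i ih => rw [pow_succ, pow_succ, Module.End.mul_apply]; exact ih (s v)

theorem exists_spin_neg [Finite F] (h2 : (2 : F) ≠ 0) (hQ : (polarBilin Q).Nondegenerate) {s : V ≃ₗ[F] V}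
    (hs : ∀ v, Q (s v) = Q v) {r : ℕ} (hr : Odd r) (hrF : (r : F) ≠ 0) (hsr : ∀ v, (s ^ r) v = v)
    (hfix : ∀ v, s v = v → v = 0) [Nontrivial V] :
    ∃ u : isom Q, (∀ v, (u : V ≃ₗ[F] V) (s v) = s ((u : V ≃ₗ[F] V) v)) ∧ spin h2 hQ u = -detSign h2 hQ u := by
  classical
  have : Finite V := Module.finite_of_finite F
  have hqodd := odd_natCard h2
  have hself : ∀ v, polar Q v v = 2 * Q v := fun v => by rw [polar_self]; simp [two_smul, two_mul]
  -- minimal invariant subspaces
  let IsInv : Submodule F V → Prop := fun p => ∀ v ∈ p, s v ∈ p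
  let IsMin : Submodule F V → Prop := fun U => IsInv U ∧ U ≠ ⊥ ∧ ∀ p, p ≤ U → IsInv p → p = ⊥ ∨ p = U
  have hex : ∀ W : Submodule F V, IsInv W → W ≠ ⊥ → ∃ U, U ≤ W ∧ IsMin U := by
    intro W hW hW0
    have hne : ∃ n, ∃ p, p ≤ W ∧ IsInv p ∧ p ≠ ⊥ ∧ Module.finrank F p = n := ⟨_, W, le_rfl, hW, hW0, rfl⟩
    obtain ⟨U, hUW, hU, hU0, hUn⟩ := Nat.find_spec hne
    refine ⟨U, hUW, hU, hU0, fun p hp hpi => ?_⟩
    by_cases hp0 : p = ⊥
    · exact Or.inl hp0
    · exact Or.inr (Submodule.eq_of_le_of_finrank_le hp (hUn ▸ Nat.find_min' hne ⟨p, hp.trans hUW, hpi, hp0, rfl⟩))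
  have hperp : ∀ W, IsInv W → IsInv (perp Q W) := by
    intro W hW v hv
    refine mem_perp.mpr fun w hw => ?_
    obtain ⟨w₀, hw₀⟩ := (Finite.injective_iff_surjective.mp (fun (a b : W) (h : (⟨s a, hW _ a.2⟩ : W) = ⟨s b, hW _ b.2⟩) =>
      Subtype.ext (s.injective (congrArg Subtype.val h)))) ⟨w, hw⟩
    rw [← show s (w₀ : V) = w from congrArg Subtype.val hw₀, polar_apply hs, mem_perp.mp hv _ w₀.2]
  have hminX : ∀ U, IsMin U → ∀ hU : IsInv U, ∀ p : Submodule F U,
      (∀ x ∈ p, ((s : V →ₗ[F] V).restrict hU) x ∈ p) → p = ⊥ ∨ p = ⊤ := by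
    intro U hmin hU p hp
    rcases hmin.2.2 (p.map U.subtype) (Submodule.map_subtype_le U p)
      (by rintro v ⟨x, hx, rfl⟩; exact ⟨_, hp x hx, rfl⟩) with h | h
    · left
      exact Submodule.map_injective_of_injective U.subtype_injective (by rw [h, Submodule.map_bot])
    · right
      exact Submodule.map_injective_of_injective U.subtype_injective (by rw [h, Submodule.map_top, Submodule.range_subtype])
  by_cases hcase : ∃ U, IsMin U ∧ ∃ x ∈ U, Q x ≠ 0
  · -- an irreducible summand that is not totally singular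
    obtain ⟨U, hmin, z, hzU, hz⟩ := hcase
    have hU : IsInv U := hmin.1
    have hd : Disjoint U (perp Q U) := by
      rw [disjoint_iff]
      rcases hmin.2.2 (U ⊓ perp Q U) inf_le_left (fun v hv => ⟨hU v hv.1, hperp U hU v hv.2⟩) with h | h
      · exact h
      · exfalso
        have h1 : z ∈ U ⊓ perp Q U := by rw [h]; exact hzU
        have h3 := mem_perp.mp h1.2 z hzU
        rw [hself] at h3
        exact hz ((mul_eq_zero.mp h3).resolve_left h2)
    have hnd : ∀ x : U, (∀ y : U, polar Q (x : V) y = 0) → x = 0 := fun x hx =>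
      Subtype.ext (Submodule.disjoint_def.mp hd x x.2 (mem_perp.mpr fun y hy => hx ⟨y, hy⟩))
    let f : Module.End F U := (s : V →ₗ[F] V).restrict hU
    have hf : ∀ x : U, (f x : V) = s x := fun x => rfl
    have hirr := hminX U hmin hU
    let u₀ : U := ⟨z, hzU⟩
    have hu₀ : u₀ ≠ 0 := fun h => hz (by
      have : z = 0 := congrArg Subtype.val h
      rw [this, QuadraticMap.map_zero])
    let L := Algebra.adjoin F {f}
    letI : CommRing L := { (inferInstance : Ring L) with
      mul_comm := fun a b => Subtype.ext (commute_adjoin' f a.2 b.2).eq }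
    haveI : Finite (Module.End F U) := Module.finite_of_finite F
    haveI : Finite L := Finite.of_injective _ Subtype.val_injective
    haveI : Nontrivial L := ⟨⟨1, 0, fun h => hu₀ (congrArg (fun g : L => (g : Module.End F U) u₀) h)⟩⟩
    haveI : NoZeroDivisors L := ⟨fun {a b} h => by
      rw [or_iff_not_imp_left]
      intro ha
      refine Subtype.ext (LinearMap.ext fun x => ?_)
      refine injective_of_irreducible f hirr a.2 (fun e => ha (Subtype.ext e)) ?_
      have := congrArg (fun g : L => (g : Module.End F U) x) h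
      simpa using this⟩
    haveI : IsDomain L := NoZeroDivisors.to_isDomain L
    -- the adjoint
    have hstar : ∀ g : L, ∃ g' : L, ∀ x y : U,
        polar Q ((g : Module.End F U) x : V) y = polar Q (x : V) ((g' : Module.End F U) y) := by
      rintro ⟨g, hg⟩
      induction hg using Algebra.adjoin_induction with
      | mem k hk =>
        refine ⟨⟨f ^ (r - 1), pow_mem (Algebra.self_mem_adjoin_singleton F f) _⟩, fun x y => ?_⟩
        show polar Q ((k x : U) : V) y = _
        rw [Set.mem_singleton_iff.mp hk]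
        have e : (y : V) = s (((f ^ (r - 1)) y : U) : V) := by
          have h1 : ∀ (i : ℕ) (y : U), (((f ^ i) y : U) : V) = (s ^ i) (y : V) := fun i => by
            induction i with
            | zero => exact fun y => rfl
            | succ i ih => intro y; rw [pow_succ, pow_succ, Module.End.mul_apply, ih]; rfl
          rw [h1]
          obtain ⟨j, hj⟩ := hr
          have h2' := hsr (y : V)
          rw [show r = (r - 1) + 1 by omega, pow_succ'] at h2'
          exact h2'.symm
        conv_lhs => rw [hf, e, polar_apply hs]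
      | algebraMap c =>
        refine ⟨algebraMap F L c, fun x y => ?_⟩
        show polar Q ((algebraMap F (Module.End F U) c) x : V) y = polar Q (x : V) ((algebraMap F (Module.End F U) c) y : V)
        simp [Module.algebraMap_end_apply, polar_smul_left, polar_smul_right]
      | add a b _ _ ha hb =>
        obtain ⟨a', ha'⟩ := ha
        obtain ⟨b', hb'⟩ := hb
        refine ⟨a' + b', fun x y => ?_⟩
        simp only [AddMemClass.coe_add, LinearMap.add_apply, Submodule.coe_add, polar_add_left, polar_add_right]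
        rw [ha', hb']
      | mul a b _ _ ha hb =>
        obtain ⟨a', ha'⟩ := ha
        obtain ⟨b', hb'⟩ := hb
        refine ⟨b' * a', fun x y => ?_⟩
        simp only [MulMemClass.coe_mul, Module.End.mul_apply]
        exact (ha' _ y).trans (hb' x _)
    choose st hst using hstar
    have huniq : ∀ g h : L, (∀ x y : U, polar Q (x : V) ((g : Module.End F U) y) = polar Q (x : V) ((h : Module.End F U) y)) →
        g = h := fun g h he => Subtype.ext (LinearMap.ext fun y => sub_eq_zero.mp (hnd _ fun x => by
          rw [polar_comm, Submodule.coe_sub, polar_sub_right, he, sub_self]))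
    let σ : L →+* L :=
      { toFun := st
        map_one' := huniq _ _ fun x y => (hst 1 x y).symm
        map_zero' := huniq _ _ fun x y => by rw [← hst 0 x y]; simp
        map_add' := fun a b => huniq _ _ fun x y => by
          rw [← hst (a + b) x y]
          simp only [AddMemClass.coe_add, LinearMap.add_apply, Submodule.coe_add, polar_add_left, polar_add_right]
          rw [hst, hst]
        map_mul' := fun a b => huniq _ _ fun x y => by
          rw [← hst (a * b) x y, mul_comm (st a) (st b)]
          simp only [MulMemClass.coe_mul, Module.End.mul_apply]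
          rw [hst, hst] }
    have hσσ : ∀ g : L, σ (σ g) = g := fun g => huniq _ _ fun x y => by
      show polar Q (x : V) ((st (st g) : Module.End F U) y : V) = _
      rw [← hst (st g) x y, polar_comm, ← hst g y x, polar_comm]
    have hσne : σ ≠ RingHom.id L := fun hid => by
      let g : L := ⟨f, Algebra.self_mem_adjoin_singleton F f⟩
      have h1 : ∀ x y : U, polar Q (s (x : V)) y = polar Q (x : V) (s (y : V)) := fun x y => by
        have := hst g x y
        rw [show st g = g from RingHom.congr_fun hid g] at this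
        exact this
      have h3 : ∀ y : U, s (s (y : V)) = y := fun y => by
        have : f (f y) - y = 0 := hnd _ fun x => by
          have e := h1 x (f y)
          rw [hf] at e
          rw [Submodule.coe_sub, polar_comm, polar_sub_right, hf, hf, ← e, polar_apply hs, sub_self]
        exact congrArg Subtype.val (sub_eq_zero.mp this)
      exact hz (by rw [show z = 0 from hfix z (fix_of_sq_fix hr hsr (h3 u₀)), QuadraticMap.map_zero])
    have hσalg : ∀ c : F, σ (algebraMap F L c) = algebraMap F L c := fun c => huniq _ _ fun x y => by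
      show polar Q (x : V) ((st _ : Module.End F U) y : V) = _
      rw [← hst]
      show polar Q ((algebraMap F (Module.End F U) c) x : V) y = polar Q (x : V) ((algebraMap F (Module.End F U) c) y : V)
      simp [Module.algebraMap_end_apply, polar_smul_left, polar_smul_right]
    -- the norm one group
    let Nm : Lˣ →* Lˣ := Units.map (σ : L →* L) * MonoidHom.id Lˣ
    have hNm : ∀ a : Lˣ, ((Nm a : Lˣ) : L) = σ a * a := fun a => rfl
    haveI : Finite Lˣ := inferInstance
    haveI : IsCyclic Lˣ := inferInstance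
    obtain ⟨a, ha⟩ := IsCyclic.exists_generator (α := Nm.ker)
    have hN : orderOf a = Nat.card Nm.ker := orderOf_eq_card_of_forall_mem_zpowers ha
    have hQA : ∀ b : Lˣ, Nm b = 1 → ∀ x : U, Q (unitAct f b x : V) = Q (x : V) := fun b hb x => by
      refine mul_left_cancel₀ h2 ?_
      rw [← hself, ← hself, unitAct_apply, hst, ← Module.End.mul_apply, ← MulMemClass.coe_mul]
      show polar Q (x : V) ((((σ b * b : L)) : Module.End F U) x : V) = _
      rw [← hNm, hb]
      rfl
    have hfr : ∀ (b : Lˣ) (x : U), x ≠ 0 → unitAct f b x = x → b = 1 := fun b x hx hbx => by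
      refine Units.ext ((bijective_eval f hirr hx).1 ?_)
      exact hbx
    refine spin_eq_neg_one_of_summand h2 hQ hs hU hd (unitAct f (a : Lˣ)) (hQA _ a.2) (fun w => ?_)
      (N := Nat.card Nm.ker) Nat.card_pos ?_ ?_ (fun w hw i hi => ?_) ?_
    · have e := congrArg (fun k : Module.End F U => (k w : V)) (commute_adjoin f ((a : Lˣ) : L).2).eq
      simp only [Module.End.mul_apply, hf] at e
      exact e.symm
    · -- even, as `-1` has norm one
      have hm1 : (-1 : Lˣ) ∈ Nm.ker := Units.ext (by rw [hNm]; simp)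
      have hne : (⟨-1, hm1⟩ : Nm.ker) ≠ 1 := fun h => h2 (by
        have h3 : ((-1 : L) : Module.End F U) u₀ = u₀ :=
          congrArg (fun g : Nm.ker => (((g : Lˣ) : L) : Module.End F U) u₀) h
        have h4 : (2 : F) • u₀ = 0 := by
          rw [two_smul]
          nth_rw 1 [← h3]
          simp
        exact (smul_eq_zero.mp h4).resolve_right hu₀)
      have h5 := orderOf_dvd_natCard (⟨-1, hm1⟩ : Nm.ker)
      rw [orderOf_eq_prime (p := 2) (Subtype.ext (by rw [Subgroup.coe_pow]; simp)) hne] at h5
      exact even_iff_two_dvd.mpr h5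
    · rw [← map_pow, ← Subgroup.coe_pow, ← hN, pow_orderOf_eq_one, Subgroup.coe_one, map_one]
    · rw [← map_pow, ← Subgroup.coe_pow] at hi
      rw [← hN]
      exact orderOf_dvd_of_pow_eq_one (Subtype.ext (hfr _ w hw hi))
    · -- the vectors of value one
      let L0 : Submodule F L :=
        { carrier := {g | σ g = g}
          add_mem' := fun {g h} hg hh => by rw [Set.mem_setOf_eq] at *; rw [map_add, hg, hh]
          zero_mem' := map_zero σ
          smul_mem' := fun c g hg => by
            rw [Set.mem_setOf_eq] at *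
            rw [Algebra.smul_def, map_mul, hσalg, hg] }
      haveI : FiniteDimensional F L := Module.Finite.of_finite
      let φ : Module.Dual F L0 :=
        { toFun := fun g => 2⁻¹ * polar Q (((g : L) : Module.End F U) u₀ : V) u₀
          map_add' := fun g h => by simp [polar_add_left, mul_add]
          map_smul' := fun c g => by simp [polar_smul_left]; ring }
      have hφN : ∀ g : L, ∀ hg : σ g * g ∈ L0, φ ⟨σ g * g, hg⟩ = Q (((g : Module.End F U) u₀ : U) : V) := fun g hg => by
        show 2⁻¹ * polar Q (((σ g * g : L) : Module.End F U) u₀ : V) u₀ = _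
        rw [MulMemClass.coe_mul, Module.End.mul_apply, polar_comm]
        show 2⁻¹ * polar Q (u₀ : V) ((st g : Module.End F U) ((g : Module.End F U) u₀) : V) = _
        rw [← hst, hself, inv_mul_cancel_left₀ h2]
      have hmem : ∀ g : L, σ g * g ∈ L0 := fun g => by
        show σ (σ g * g) = σ g * g
        rw [map_mul, hσσ, mul_comm]
      have hφ0 : φ ≠ 0 := fun h => hz (by
        have := hφN 1 (hmem 1)
        rw [h] at this
        exact this.symm)
      refine ⟨Nat.card F ^ (Module.finrank F L0 - 1), hqodd.pow, ?_⟩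
      rw [← natCard_fibre φ hφ0 1, ← Nat.card_prod]
      have hnorm : ∀ z : {z : L0 // φ z = 1}, ∃ b : Lˣ, ((Nm b : Lˣ) : L) = (z.1 : L) := fun z => by
        have hz0 : (z.1 : L) ≠ 0 := fun h => by
          have h0 := z.2
          rw [show z.1 = 0 from Subtype.ext h, map_zero] at h0
          exact zero_ne_one h0
        letI : Field L := (Finite.isField_of_domain L).toField
        obtain ⟨c, hc0, hc⟩ := CfsgLib.Hermitian.exists_norm hσne hσσ hz0 z.1.2
        exact ⟨Units.mk0 c hc0, hc⟩
      choose b hb using hnorm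
      have hbijU := bijective_eval f hirr hu₀
      refine Nat.card_eq_of_bijective (fun p : Nm.ker × {z : L0 // φ z = 1} =>
        (⟨((((p.1 : Lˣ) * b p.2 : Lˣ) : L) : Module.End F U) u₀, ⟨SetLike.coe_mem _, ?_⟩⟩ : {w : V // w ∈ U ∧ Q w = 1})) ⟨?_, ?_⟩ |>.symm
      · rw [Units.val_mul, MulMemClass.coe_mul, Module.End.mul_apply, ← unitAct_apply f (p.1 : Lˣ), hQA _ p.1.2,
          ← hφN _ (hmem _)]
        refine Eq.trans (congrArg φ (Subtype.ext ?_)) p.2.2
        exact (hNm (b p.2)).symm.trans (hb p.2)
      · rintro ⟨⟨x, hx⟩, z⟩ ⟨⟨y, hy⟩, w⟩ h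
        have h' := congrArg (fun v : {w : V // w ∈ U ∧ Q w = 1} => v.1) h
        have h1 : x * b z = y * b w := Units.ext (hbijU.1 (Subtype.ext h'))
        have h3 : Nm (b z) = Nm (b w) := by
          have := congrArg Nm h1
          rwa [map_mul, map_mul, MonoidHom.mem_ker.mp hx, MonoidHom.mem_ker.mp hy, one_mul, one_mul] at this
        have hzw : z = w := Subtype.ext (Subtype.ext (by rw [← hb z, h3, hb w]))
        subst hzw
        obtain rfl : x = y := mul_right_cancel h1
        rfl
      · rintro ⟨v, hvU, hv⟩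
        obtain ⟨g, hg⟩ := hbijU.2 ⟨v, hvU⟩
        have hg0 : g ≠ 0 := fun e => by
          rw [e] at hg
          have hv0 : v = 0 := (congrArg Subtype.val hg).symm
          rw [hv0, QuadraticMap.map_zero] at hv
          exact zero_ne_one hv
        let c : Lˣ := (show IsUnit g from by
          obtain ⟨g', hg'⟩ := (Finite.isField_of_domain L).mul_inv_cancel hg0
          exact IsUnit.of_mul_eq_one g' hg').unit
        let z : {z : L0 // φ z = 1} := ⟨⟨σ g * g, hmem g⟩, by
          rw [hφN g, show (((g : Module.End F U) u₀ : U) : V) = v from congrArg Subtype.val hg, hv]⟩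
        refine ⟨(⟨c * (b z)⁻¹, ?_⟩, z), Subtype.ext ?_⟩
        · have : Nm c = Nm (b z) := Units.ext (by rw [hb z, hNm]; rfl)
          rw [MonoidHom.mem_ker, map_mul, map_inv, this, mul_inv_cancel]
        · show ((((c * (b z)⁻¹ * b z : Lˣ) : L) : Module.End F U) u₀ : V) = v
          rw [inv_mul_cancel_right]
          exact congrArg Subtype.val hg
  · -- all irreducible invariant subspaces are totally singular
    push Not at hcase
    obtain ⟨U, -, hmin⟩ := hex ⊤ (fun v _ => Submodule.mem_top) top_ne_bot
    have hU : IsInv U := hmin.1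
    have hsing : ∀ W, IsMin W → ∀ x ∈ W, ∀ y ∈ W, polar Q x y = 0 := fun W hW x hx y hy => by
      rw [polar, hcase W hW _ (add_mem hx hy), hcase W hW x hx, hcase W hW y hy]; ring
    have hS : Module.End.IsSemisimple (s : V →ₗ[F] V) := by
      refine Module.End.isSemisimple_of_squarefree_aeval_eq_zero (p := Polynomial.X ^ r - Polynomial.C (1 : F))
        (Polynomial.separable_X_pow_sub_C 1 hrF one_ne_zero).squarefree ?_
      ext v
      simp [pow_apply_eq, hsr]
    obtain ⟨⟨U', hU'⟩, hcompl⟩ := Module.End.isSemisimple_iff'.mp hS ⟨perp Q U, fun v hv => hperp U hU v hv⟩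
    have hU'i : IsInv U' := fun v hv => hU' hv
    have hdisj : perp Q U ⊓ U' = ⊥ := congrArg Subtype.val hcompl.inf_eq_bot
    have hsup : perp Q U ⊔ U' = ⊤ := congrArg Subtype.val hcompl.sup_eq_top
    have hdim : Module.finrank F U' = Module.finrank F U := by
      have h := Submodule.finrank_sup_add_finrank_inf_eq (perp Q U) U'
      rw [hdisj, hsup, finrank_top, finrank_bot, CfsgLib.Forms.finrank_perp hQ] at h
      have := Submodule.finrank_le U
      omega
    let f : Module.End F U := (s : V →ₗ[F] V).restrict hU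
    have hf : ∀ x : U, (f x : V) = s x := fun x => rfl
    have hirr := hminX U hmin hU
    obtain ⟨u₀, hu₀⟩ : ∃ x : U, x ≠ 0 := by
      obtain ⟨x, hx, hx0⟩ := U.ne_bot_iff.mp hmin.2.1
      exact ⟨⟨x, hx⟩, fun h => hx0 (congrArg Subtype.val h)⟩
    -- the complement is totally singular
    have hsing' : ∀ x ∈ U', ∀ y ∈ U', polar Q x y = 0 := by
      obtain ⟨W, hWU', hW⟩ := hex U' hU'i fun h => by
        rw [h] at hdim
        have hpos : 0 < Module.finrank F U := Module.finrank_pos_iff_exists_ne_zero.mpr ⟨u₀, hu₀⟩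
        rw [finrank_bot] at hdim
        omega
      have hWU : W = U' := by
        have hp : U ⊓ perp Q W = ⊥ := (hmin.2.2 (U ⊓ perp Q W) inf_le_left
          (fun v hv => ⟨hU v hv.1, hperp W hW.1 v hv.2⟩)).resolve_right fun h => by
            obtain ⟨w, hw, hw0⟩ := W.ne_bot_iff.mp hW.2.1
            refine hw0 ((Submodule.mem_bot F).mp (hdisj ▸ ⟨mem_perp.mpr fun x hx => ?_, hWU' hw⟩))
            rw [polar_comm]
            have hxW : x ∈ U ⊓ perp Q W := by rw [h]; exact hx
            exact mem_perp.mp hxW.2 w hw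
        refine Submodule.eq_of_le_of_finrank_le hWU' ?_
        have h := Submodule.finrank_sup_add_finrank_inf_eq U (perp Q W)
        rw [hp, finrank_bot, CfsgLib.Forms.finrank_perp hQ] at h
        have h1 := Submodule.finrank_le (U ⊔ perp Q W)
        have h2' := Submodule.finrank_le W
        omega
      subst hWU
      exact hsing W hW
    let φ₀ : U' →ₗ[F] Module.Dual F U :=
      { toFun := fun y => ((polarBilin Q).flip (y : V)).comp U.subtype
        map_add' := fun a b => LinearMap.ext fun x => by simp [polar_add_right]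
        map_smul' := fun c a => LinearMap.ext fun x => by simp [polar_smul_right] }
    have hφinj : Function.Injective φ₀ := by
      rw [injective_iff_map_eq_zero]
      intro y hy
      refine Subtype.ext ((Submodule.mem_bot F).mp (hdisj ▸ ⟨mem_perp.mpr fun x hx => ?_, y.2⟩))
      rw [polar_comm]
      exact LinearMap.congr_fun hy ⟨x, hx⟩
    let φ : U' ≃ₗ[F] Module.Dual F U :=
      LinearEquiv.ofInjectiveOfFinrankEq φ₀ hφinj (by rw [hdim, Subspace.dual_finrank_eq])
    have hφ : ∀ y x, φ y x = polar Q (x : V) (y : V) := fun y x => rfl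
    have hndU : ∀ x : U, (∀ y : U', polar Q (x : V) y = 0) → x = 0 := fun x hx => by
      refine (Module.forall_dual_apply_eq_zero_iff F x).mp fun ψ => ?_
      obtain ⟨y, rfl⟩ := φ.surjective ψ
      rw [hφ]
      exact hx y
    let L := Algebra.adjoin F {f}
    letI : CommRing L := { (inferInstance : Ring L) with
      mul_comm := fun a b => Subtype.ext (commute_adjoin' f a.2 b.2).eq }
    haveI : Finite (Module.End F U) := Module.finite_of_finite F
    haveI : Finite L := Finite.of_injective _ Subtype.val_injective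
    haveI : Nontrivial L := ⟨⟨1, 0, fun h => hu₀ (congrArg (fun g : L => (g : Module.End F U) u₀) h)⟩⟩
    haveI : NoZeroDivisors L := ⟨fun {a b} h => by
      rw [or_iff_not_imp_left]
      intro ha
      refine Subtype.ext (LinearMap.ext fun x => ?_)
      refine injective_of_irreducible f hirr a.2 (fun e => ha (Subtype.ext e)) ?_
      have := congrArg (fun g : L => (g : Module.End F U) x) h
      simpa using this⟩
    haveI : IsDomain L := NoZeroDivisors.to_isDomain L
    haveI : Finite Lˣ := inferInstance
    haveI : IsCyclic Lˣ := inferInstance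
    obtain ⟨a, ha⟩ := IsCyclic.exists_generator (α := Lˣ)
    have hbijU := bijective_eval f hirr hu₀
    have hcardU : Nat.card U = Nat.card F ^ Module.finrank F U := Module.natCard_eq_pow_finrank
    have hN : orderOf a = Nat.card U - 1 := by
      letI : Field L := (Finite.isField_of_domain L).toField
      rw [orderOf_eq_card_of_forall_mem_zpowers ha, Nat.card_units, Nat.card_congr (Equiv.ofBijective _ hbijU)]
    have hfr : ∀ (b : Lˣ) (x : U), x ≠ 0 → unitAct f b x = x → b = 1 := fun b x hx hbx =>
      Units.ext ((bijective_eval f hirr hx).1 hbx)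
    have hadj : ∀ (b : Lˣ) (x : U), unitAct f b ⟨s x, hU _ x.2⟩ = ⟨s (unitAct f b x : V), hU _ (unitAct f b x).2⟩ :=
      fun b x => Subtype.ext (by
        have e := congrArg (fun k : Module.End F U => (k x : V)) (commute_adjoin f (b : L).2).eq
        simp only [Module.End.mul_apply, hf] at e
        exact e.symm)
    let a' : U' ≃ₗ[F] U' := φ.trans ((unitAct f a⁻¹).dualMap.trans φ.symm)
    have ha' : ∀ (x : U) (y : U'), polar Q (x : V) (a' y : V) = polar Q (unitAct f a⁻¹ x : V) (y : V) := fun x y => by
      rw [← hφ, show φ (a' y) = (unitAct f a⁻¹).dualMap (φ y) from φ.apply_symm_apply _]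
      rfl
    have ha'i : ∀ (i : ℕ) (x : U) (y : U'),
        polar Q (x : V) ((a' ^ i) y : V) = polar Q (unitAct f (a⁻¹ ^ i) x : V) (y : V) := fun i => by
      induction i with
      | zero => intro x y; rw [pow_zero, pow_zero, map_one]; rfl
      | succ i ih =>
        intro x y
        rw [pow_succ a']
        show polar Q (x : V) ((a' ^ i) (a' y) : V) = _
        rw [ih, ha', pow_succ', map_mul]
        rfl
    let e₀ : (U × U') →ₗ[F] ↥(U ⊔ U') :=
      (Submodule.inclusion (le_sup_left : U ≤ U ⊔ U')).coprod (Submodule.inclusion le_sup_right)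
    have he₀ : ∀ p, (e₀ p : V) = (p.1 : V) + p.2 := fun p => rfl
    have hpxy : ∀ x ∈ U, ∀ y : U', polar Q (x + (y : V)) x = polar Q (y : V) x := fun x hx y => by
      rw [polar_add_left, hsing U hmin x hx x hx, zero_add]
    have he : Function.Bijective e₀ := by
      refine ⟨?_, fun w => ?_⟩
      · rw [injective_iff_map_eq_zero]
        rintro ⟨x, y⟩ h
        have h1 : (x : V) + y = 0 := congrArg Subtype.val h
        have hx : x = 0 := hndU x fun y' => by
          rw [show (x : V) = -(y : V) from eq_neg_of_add_eq_zero_left h1, polar_neg_left, hsing' _ y.2 _ y'.2, neg_zero]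
        subst hx
        rw [Submodule.coe_zero, zero_add] at h1
        exact Prod.ext rfl (Subtype.ext h1)
      · obtain ⟨x, hx, y, hy, e⟩ := Submodule.mem_sup.mp w.2
        exact ⟨(⟨x, hx⟩, ⟨y, hy⟩), Subtype.ext e⟩
    let e := LinearEquiv.ofBijective e₀ he
    let A : ↥(U ⊔ U') ≃ₗ[F] ↥(U ⊔ U') := e.symm.trans (((unitAct f a).prodCongr a').trans e)
    have hA : ∀ x y, A (e₀ (x, y)) = e₀ (unitAct f a x, a' y) := fun x y => by
      show e (((unitAct f a).prodCongr a') (e.symm (e (x, y)))) = _
      rw [e.symm_apply_apply]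
      rfl
    have hAi : ∀ (i : ℕ) x y, (A ^ i) (e₀ (x, y)) = e₀ (unitAct f (a ^ i) x, (a' ^ i) y) := fun i => by
      induction i with
      | zero => intro x y; rw [pow_zero, pow_zero, pow_zero, map_one]; rfl
      | succ i ih =>
        intro x y
        rw [pow_succ A]
        show (A ^ i) (A (e₀ (x, y))) = _
        rw [hA, ih, pow_succ, pow_succ, map_mul]
        rfl
    have hQe : ∀ (x : U) (y : U'), Q ((x : V) + y) = polar Q (x : V) y := fun x y => by
      have h1 : Q (x : V) = 0 := hcase U hmin x x.2
      have h3 : Q (y : V) = 0 := by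
        have := hsing' _ y.2 _ y.2
        rw [hself] at this
        exact (mul_eq_zero.mp this).resolve_left h2
      rw [QuadraticMap.map_add (⇑Q), h1, h3]
      ring
    have hWinv : ∀ v ∈ U ⊔ U', s v ∈ U ⊔ U' := fun v hv => by
      obtain ⟨x, hx, y, hy, rfl⟩ := Submodule.mem_sup.mp hv
      rw [map_add]
      exact Submodule.add_mem_sup (hU x hx) (hU'i y hy)
    have hWd : Disjoint (U ⊔ U') (perp Q (U ⊔ U')) := by
      rw [Submodule.disjoint_def]
      intro v hv hvp
      obtain ⟨x, hx, y, hy, rfl⟩ := Submodule.mem_sup.mp hv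
      have hx0 : (⟨x, hx⟩ : U) = 0 := hndU _ fun y' => by
        have := mem_perp.mp hvp y' (Submodule.mem_sup_right y'.2)
        rwa [polar_add_left, hsing' y hy _ y'.2, add_zero] at this
      have hx0' : x = 0 := congrArg Subtype.val hx0
      subst hx0'
      rw [zero_add] at hvp ⊢
      exact (Submodule.mem_bot F).mp (hdisj ▸ ⟨mem_perp.mpr fun x' hx' => mem_perp.mp hvp x' (Submodule.mem_sup_left hx'), hy⟩)
    refine spin_eq_neg_one_of_summand h2 hQ hs hWinv hWd A (fun w => ?_) (fun w => ?_)
      (N := orderOf a) (orderOf_pos a) ?_ ?_ (fun w hw i hi => ?_) ?_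
    · obtain ⟨⟨x, y⟩, rfl⟩ := he.2 w
      rw [hA, he₀, he₀, hQe, hQe, ha', ← Function.comp_apply (f := unitAct f a⁻¹), map_inv]
      show polar Q (((unitAct f a).symm ((unitAct f a) x) : U) : V) y = _
      rw [LinearEquiv.symm_apply_apply]
    · obtain ⟨⟨x, y⟩, rfl⟩ := he.2 w
      have h1 : (⟨s (e₀ (x, y)), hWinv _ (e₀ (x, y)).2⟩ : ↥(U ⊔ U')) = e₀ (⟨s x, hU _ x.2⟩, ⟨s y, hU'i _ y.2⟩) :=
        Subtype.ext (map_add s _ _)
      rw [h1, hA, hA, he₀, he₀, map_add, hadj]
      congr 1
      have h3 : a' ⟨s y, hU'i _ y.2⟩ = (⟨s (a' y : V), hU'i _ (a' y).2⟩ : U') := φ.injective (LinearMap.ext fun x' => by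
        rw [hφ, hφ, ha']
        obtain ⟨x₁, hx₁⟩ := (Finite.injective_iff_surjective.mp (fun (p q : U) (h : (⟨s p, hU _ p.2⟩ : U) = ⟨s q, hU _ q.2⟩) =>
          Subtype.ext (s.injective (congrArg Subtype.val h)))) x'
        rw [← hx₁, hadj, polar_apply hs]
        show polar Q (unitAct f a⁻¹ x₁ : V) y = polar Q (s (x₁ : V)) (s (a' y : V))
        rw [polar_apply hs, ha'])
      exact congrArg Subtype.val h3
    · rw [hN, Nat.even_sub (Nat.card_pos), hcardU]
      simp [Nat.not_even_iff_odd.mpr hqodd.pow]
    · refine LinearEquiv.ext fun w => ?_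
      obtain ⟨⟨x, y⟩, rfl⟩ := he.2 w
      rw [hAi, pow_orderOf_eq_one, map_one]
      refine congrArg e₀ (Prod.ext rfl (φ.injective (LinearMap.ext fun x' => ?_)))
      rw [hφ, hφ, ha'i, inv_pow, pow_orderOf_eq_one, inv_one, map_one]
      rfl
    · obtain ⟨⟨x, y⟩, rfl⟩ := he.2 w
      rw [hAi] at hi
      have hi' := he.1 hi
      refine orderOf_dvd_of_pow_eq_one ?_
      by_cases hx : x = 0
      · have hy : y ≠ 0 := fun hy => hw (by rw [hx, hy]; exact map_zero e₀)
        by_contra hne
        refine hy (φ.injective (LinearMap.ext fun x' => ?_))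
        rw [map_zero, LinearMap.zero_apply, hφ]
        have hy' : (a' ^ i) y = y := congrArg Prod.snd hi'
        have hg : Function.Bijective fun x' : U => unitAct f (a⁻¹ ^ i) x' - x' :=
          Finite.injective_iff_bijective.mp fun p q hpq => by
            by_contra hpq'
            refine hne ?_
            have h5 : unitAct f (a⁻¹ ^ i) (p - q) = p - q := by
              rw [map_sub]
              exact sub_eq_sub_iff_sub_eq_sub.mp hpq
            have := hfr _ _ (sub_ne_zero.mpr hpq') h5
            rwa [inv_pow, inv_eq_one] at this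
        obtain ⟨x₁, hx₁⟩ := hg.2 x'
        rw [← hx₁]
        show polar Q ((unitAct f (a⁻¹ ^ i) x₁ : V) - x₁) y = 0
        rw [polar_sub_left, ← ha'i, hy', sub_self]
      · exact hfr _ x hx (congrArg Prod.fst hi')
    · refine ⟨Nat.card F ^ (Module.finrank F U' - 1), hqodd.pow, ?_⟩
      rw [hN]
      let E : {w : V // w ∈ U ⊔ U' ∧ Q w = 1} ≃ (x : {x : U // x ≠ 0}) × {y : U' // φ.symm.symm y (x.1) = 1} :=
        (Equiv.ofBijective (fun p : (x : {x : U // x ≠ 0}) × {y : U' // φ.symm.symm y (x.1) = 1} =>
          (⟨(p.1.1 : V) + (p.2.1 : V), Submodule.add_mem_sup p.1.1.2 p.2.1.2, by rw [hQe]; exact p.2.2⟩ :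
            {w : V // w ∈ U ⊔ U' ∧ Q w = 1})) ⟨by
          rintro ⟨⟨x, hx⟩, ⟨y, hy⟩⟩ ⟨⟨x', hx'⟩, ⟨y', hy'⟩⟩ h
          have h' := congrArg (fun v : {w : V // w ∈ U ⊔ U' ∧ Q w = 1} => v.1) h
          obtain ⟨rfl, rfl⟩ := Prod.ext_iff.mp (he.1 (a₁ := (x, y)) (a₂ := (x', y')) (Subtype.ext h'))
          rfl, by
          rintro ⟨v, hv, hv1⟩
          obtain ⟨⟨x, y⟩, hxy⟩ := he.2 ⟨v, hv⟩
          have hv' : (x : V) + y = v := congrArg Subtype.val hxy
          rw [← hv', hQe] at hv1
          refine ⟨⟨⟨x, fun h => ?_⟩, ⟨y, hv1⟩⟩, Subtype.ext hv'⟩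
          rw [h, Submodule.coe_zero, polar_zero_left] at hv1
          exact zero_ne_one hv1⟩).symm
      haveI : Fintype {x : U // x ≠ 0} := Fintype.ofFinite _
      rw [Nat.card_congr E, Nat.card_sigma, Finset.sum_congr rfl fun x _ => natCard_fibre
        ((Module.Dual.eval F U (x.1)).comp φ.toLinearMap) (fun h => x.2 (by
          refine (Module.forall_dual_apply_eq_zero_iff F x.1).mp fun ψ => ?_
          obtain ⟨y, rfl⟩ := φ.surjective ψ
          exact LinearMap.congr_fun h y)) 1, Finset.sum_const, smul_eq_mul, Finset.card_univ,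
        ← Nat.card_eq_fintype_card]
      congr 1
      haveI := Fintype.ofFinite U
      simp [Nat.card_eq_fintype_card, Fintype.card_subtype_compl]

end CfsgLib.OrthFusion
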